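import Cfsg.Agent.H4.SzGroup
import Cfsg.Agent.H9.Sp.Root

/-! `Sp₄` in characteristic two as a group of matrices: basic calculus. -/

set_option autoImplicit false
set_option linter.unusedSectionVars false
open Matrix Cfsg.Lie Cfsg.Agent.H4.Suz

namespace Cfsg.Agent.H9.S4

/-- the symplectic group of the antidiagonal form -/
@[ext] structure G (F : Type*) [Field F] where
  /-- the matrix -/
  m : Matrix (Fin 4) (Fin 4) F
  sp : mᵀ * nM * m = nM

variable {F : Type*} [Field F]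

theorem G.inv_eq (g : G F) : nM * g.mᵀ * nM * g.m = 1 := by
  rw [Matrix.mul_assoc, Matrix.mul_assoc, ← Matrix.mul_assoc g.mᵀ, g.sp, nM_mul_nM]

theorem G.sp' (g : G F) : g.m * nM * g.mᵀ = nM := by
  have h1 := mul_eq_one_comm.1 g.inv_eq
  calc _ = g.m * (nM * g.mᵀ * nM) * nM := by
        simp only [Matrix.mul_assoc, nM_mul_nM, Matrix.mul_one]
    _ = _ := by rw [h1, Matrix.one_mul]

theorem nM_T : (nM : Matrix (Fin 4) (Fin 4) F)ᵀ = nM := by
  apply ext4 <;> simp [nM]

instance : Group (G F) where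
  mul a b := ⟨a.m * b.m, by
    rw [transpose_mul]
    calc b.mᵀ * a.mᵀ * nM * (a.m * b.m) = b.mᵀ * (a.mᵀ * nM * a.m) * b.m := by
          simp only [Matrix.mul_assoc]
      _ = nM := by rw [a.sp, b.sp]⟩
  one := ⟨1, by simp⟩
  inv a := ⟨nM * a.mᵀ * nM, by
    simp only [transpose_mul, nM_T, transpose_transpose]
    calc nM * (a.m * nM) * nM * (nM * a.mᵀ * nM) =
        nM * (a.m * (nM * nM) * nM * a.mᵀ) * nM := by simp only [Matrix.mul_assoc]
      _ = nM := by rw [nM_mul_nM, Matrix.mul_one, a.sp', nM_mul_nM, Matrix.one_mul]⟩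
  mul_assoc a b c := G.ext (Matrix.mul_assoc _ _ _)
  one_mul a := G.ext (Matrix.one_mul _)
  mul_one a := G.ext (Matrix.mul_one _)
  inv_mul_cancel a := G.ext a.inv_eq

theorem G.mul_m (a b : G F) : (a * b).m = a.m * b.m := rfl
theorem G.one_m : (1 : G F).m = 1 := rfl
theorem G.inv_m (a : G F) : (a⁻¹).m = nM * a.mᵀ * nM := rfl

theorem G.inv_apply (a : G F) (i j : Fin 4) : (a⁻¹).m i j = a.m j.rev i.rev := by
  rw [G.inv_m, mul_nM_apply, nM_mul_apply]; rfl

theorem G.mul_apply (a b : G F) (i j : Fin 4) : (a * b).m i j =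
    a.m i 0 * b.m 0 j + a.m i 1 * b.m 1 j + a.m i 2 * b.m 2 j + a.m i 3 * b.m 3 j := mul4 _ _ _ _

instance [Finite F] : Finite (G F) := Finite.of_injective G.m fun _ _ => G.ext

theorem G.orth (g : G F) (a b : Fin 4) :
    g.m 0 a * g.m 3 b + g.m 1 a * g.m 2 b + g.m 2 a * g.m 1 b + g.m 3 a * g.m 0 b = nM a b := by
  rw [← g.sp]
  simp [mul4, nM]
  ring

theorem G.orth' (g : G F) (a b : Fin 4) :
    g.m a 0 * g.m b 3 + g.m a 1 * g.m b 2 + g.m a 2 * g.m b 1 + g.m a 3 * g.m b 0 = nM a b := by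
  rw [← g.sp']
  simp [mul4, nM]
  ring

/-- column vectors -/
abbrev V (F : Type*) := Fin 4 → F

instance : DistribMulAction (G F) (V F) where
  smul g v := g.m *ᵥ v
  one_smul v := Matrix.one_mulVec v
  mul_smul a b v := (Matrix.mulVec_mulVec v a.m b.m).symm
  smul_zero _ := Matrix.mulVec_zero _
  smul_add _ := Matrix.mulVec_add _

theorem smul_def (g : G F) (v : V F) : g • v = g.m *ᵥ v := rfl

instance : SMulCommClass (G F) F (V F) := ⟨fun g c v => Matrix.mulVec_smul g.m c v⟩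

theorem smul_smul' (g : G F) (c : F) (v : V F) : g • c • v = c • g • v := smul_comm g c v

theorem sm (g : G F) (v : V F) (i : Fin 4) :
    (g • v) i = g.m i 0 * v 0 + g.m i 1 * v 1 + g.m i 2 * v 2 + g.m i 3 * v 3 := by
  simp [smul_def, mulVec, dotProduct, Fin.sum_univ_four]

theorem vext {u v : V F} (h0 : u 0 = v 0) (h1 : u 1 = v 1) (h2 : u 2 = v 2) (h3 : u 3 = v 3) :
    u = v := by
  ext i; fin_cases i <;> assumption

/-- basis vectors -/
def e (i : Fin 4) : V F := Pi.single i 1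

theorem e_apply (i j : Fin 4) : (e i : V F) j = if j = i then 1 else 0 := by
  simp [e, Pi.single_apply]

theorem smul_e (g : G F) (i j : Fin 4) : (g • (e j : V F)) i = g.m i j := by
  simp [smul_def, e]

theorem e_ne (i : Fin 4) : (e i : V F) ≠ 0 := fun h => by
  simpa [e_apply] using congrFun h i

theorem G.ext_v {g h : G F} (H : ∀ v : V F, g • v = h • v) : g = h := by
  ext i j
  rw [← smul_e, ← smul_e, H]

/-- the form -/
def B : V F →ₗ[F] V F →ₗ[F] F :=
  LinearMap.mk₂ F (fun u v => u 0 * v 3 + u 1 * v 2 + u 2 * v 1 + u 3 * v 0)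
    (fun _ _ _ => by simp; ring) (fun _ _ _ => by simp; ring) (fun _ _ _ => by simp; ring)
    (fun _ _ _ => by simp; ring)

theorem B_apply (u v : V F) : B u v = u 0 * v 3 + u 1 * v 2 + u 2 * v 1 + u 3 * v 0 := rfl

theorem B_comm (u v : V F) : B u v = B v u := by simp only [B_apply]; ring

theorem B_e (u : V F) (i : Fin 4) : B u (e i) = u i.rev := by
  fin_cases i <;> simp [B_apply, e_apply]

theorem B_nd {z : V F} (h : ∀ x, B x z = 0) : z = 0 := by
  ext i
  have := h (e i.rev)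
  rwa [B_comm, B_e, Fin.rev_rev] at this

theorem B_smul (g : G F) (u v : V F) : B (g • u) (g • v) = B u v := by
  have e1 : ∀ u v : V F, B u v = u ⬝ᵥ (nM *ᵥ v) := by
    intro u v
    simp [B_apply, dotProduct, mulVec, Fin.sum_univ_four, nM]
  rw [e1, e1, smul_def, smul_def]
  nth_rewrite 2 [← g.sp]
  rw [← mulVec_mulVec, ← mulVec_mulVec, dotProduct_mulVec u, vecMul_transpose]

theorem B_left (g : G F) (u v : V F) : B (g • u) v = B u (g⁻¹ • v) := by
  rw [← B_smul g u (g⁻¹ • v), smul_inv_smul]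

theorem B_right (g : G F) (u v : V F) : B u (g • v) = B (g⁻¹ • u) v := by
  rw [← B_smul g (g⁻¹ • u) v, smul_inv_smul]

theorem exists_B {z : V F} (h : z ≠ 0) : ∃ x, B x z = 1 := by
  by_contra! h1
  apply h
  apply B_nd
  intro x
  by_contra h2
  exact h1 ((B x z)⁻¹ • x) (by simp [h2])

/-- a symplectic matrix from a map preserving the form -/
def ofB (A : Matrix (Fin 4) (Fin 4) F)
    (h : ∀ a b, A 0 a * A 3 b + A 1 a * A 2 b + A 2 a * A 1 b + A 3 a * A 0 b = nM a b) : G F :=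
  ⟨A, by
    ext a b
    rw [← h]
    simp [mul4, nM]
    ring⟩

variable [CharP F 2]

theorem two : (2 : F) = 0 := by exact_mod_cast CharP.cast_eq_zero F 2

@[simp] theorem B_self (u : V F) : B u u = 0 := by
  rw [B_apply]; grind

theorem symp : Sp.Symp (B : V F →ₗ[F] V F →ₗ[F] F) := ⟨B_self, fun _ => B_nd⟩

theorem vadd_self (v : V F) : v + v = 0 := by
  ext i; simp [CharTwo.add_self_eq_zero]

theorem vadd_eq_zero {u v : V F} : u + v = 0 ↔ u = v := by
  constructor
  · intro h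
    rw [← add_zero u, ← vadd_self v, ← add_assoc, h, zero_add]
  · rintro rfl; exact vadd_self _

/-- a symplectic matrix from its columns -/
def cols (a b c d : V F) (hab : B a b = 0) (hac : B a c = 0) (had : B a d = 1) (hbc : B b c = 1)
    (hbd : B b d = 0) (hcd : B c d = 0) : G F :=
  ofB (Matrix.of fun i j => ![a, b, c, d] j i) (by
    intro i j
    have := B_self a
    have := B_self b
    have := B_self c
    have := B_self d
    simp only [B_apply] at *
    fin_cases i <;> fin_cases j <;> simp [nM] <;> grind)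

theorem exists_cols {a b c d : V F} (hab : B a b = 0) (hac : B a c = 0) (had : B a d = 1)
    (hbc : B b c = 1) (hbd : B b d = 0) (hcd : B c d = 0) :
    ∃ g : G F, g • e 0 = a ∧ g • e 1 = b ∧ g • e 2 = c ∧ g • e 3 = d :=
  ⟨cols a b c d hab hac had hbc hbd hcd, by ext i; rw [smul_e]; rfl, by ext i; rw [smul_e]; rfl,
    by ext i; rw [smul_e]; rfl, by ext i; rw [smul_e]; rfl⟩

theorem exists_not_mem (a d : V F) : ∃ y : V F, ∀ α β : F, y ≠ α • a + β • d := by
  classical
  by_contra! h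
  have h1 : Submodule.span F {a, d} = ⊤ := by
    rw [eq_top_iff]
    intro y _
    obtain ⟨α, β, rfl⟩ := h y
    exact Submodule.mem_span_pair.2 ⟨α, β, rfl⟩
  have h2 := finrank_span_le_card (R := F) ({a, d} : Set (V F))
  rw [h1, finrank_top, Module.finrank_fin_fun] at h2
  have h3 : ({a, d} : Set (V F)).toFinset.card ≤ 2 := by
    rw [Set.toFinset_insert, Set.toFinset_singleton]
    exact Finset.card_le_two
  omega

theorem witt_c {a d : V F} (had : B a d = 1) : ∃ g : G F, g • e 0 = a ∧ g • e 3 = d := by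
  obtain ⟨y, hy⟩ := exists_not_mem a d
  have hda : B d a = 1 := by rw [B_comm, had]
  have hb : y + B y d • a + B y a • d ≠ 0 := fun h => hy (B y d) (B y a) (by
    rw [add_assoc] at h; exact vadd_eq_zero.1 h)
  obtain ⟨x, hx⟩ := exists_B hb
  obtain ⟨g, h0, -, -, h3⟩ := exists_cols (a := a) (b := y + B y d • a + B y a • d)
    (c := x + B x d • a + B x a • d) (d := d)
    (by simp [had, B_comm a y, CharTwo.add_self_eq_zero])
    (by simp [had, B_comm a x, CharTwo.add_self_eq_zero]) had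
    (by
      rw [B_comm, ← hx]
      simp [had, hda, B_comm a y, B_comm d y, CharTwo.add_self_eq_zero])
    (by simp [had, CharTwo.add_self_eq_zero]) (by simp [had, CharTwo.add_self_eq_zero])
  exact ⟨g, h0, h3⟩

theorem witt_a {a : V F} (ha : a ≠ 0) : ∃ g : G F, g • e 0 = a := by
  obtain ⟨d, hd⟩ := exists_B ha
  obtain ⟨g, h, -⟩ := witt_c (a := a) (d := d) (by rw [B_comm, hd])
  exact ⟨g, h⟩

theorem witt_b {a b : V F} (ha : a ≠ 0) (hb : ∀ c : F, b ≠ c • a) (hab : B a b = 0) :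
    ∃ g : G F, g • e 0 = a ∧ g • e 1 = b := by
  obtain ⟨c, hc1, hc2⟩ := (symp (F := F)).exists_perp (K := Submodule.span F {a}) (x := b)
    (fun h => by
      obtain ⟨c, hc⟩ := Submodule.mem_span_singleton.1 h
      exact hb c hc.symm)
  obtain ⟨d, hd1, hd2⟩ := (symp (F := F)).exists_perp (K := Submodule.span F {b}) (x := a)
    (fun h => by
      obtain ⟨c, hc⟩ := Submodule.mem_span_singleton.1 h
      have : c ≠ 0 := by rintro rfl; exact ha (by simpa using hc.symm)
      exact hb c⁻¹ (by rw [← hc, smul_smul, inv_mul_cancel₀ this, one_smul]))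
  have h1 := hc1 a (Submodule.mem_span_singleton_self a)
  have h2 := hd1 b (Submodule.mem_span_singleton_self b)
  obtain ⟨g, h0, h1, -, -⟩ := exists_cols (a := a) (b := b) (c := c + B c d • a) (d := d) hab
    (by simp [h1]) hd2 (by simp [hc2, B_comm b a, hab]) h2
    (by simp [hd2, CharTwo.add_self_eq_zero])
  exact ⟨g, h0, h1⟩

/-- unipotent elements -/
def u (s t x θ : F) : G F :=
  ofB !![1, s, x, θ; 0, 1, t, x + s * t; 0, 0, 1, s; 0, 0, 0, 1] (by
    intro i j
    fin_cases i <;> fin_cases j <;> simp [nM] <;> grind)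

theorem u_m (s t x θ : F) :
    (u s t x θ).m = !![1, s, x, θ; 0, 1, t, x + s * t; 0, 0, 1, s; 0, 0, 0, 1] := rfl

theorem u_mul (s t x θ s' t' x' θ' : F) : u s t x θ * u s' t' x' θ' =
    u (s + s') (t + t') (x + x' + s * t') (θ + θ' + s * (x' + s' * t') + x * s') := by
  apply G.ext
  apply ext4 <;> simp [G.mul_m, u_m, mul4] <;> grind

theorem u_zero : (u 0 0 0 0 : G F) = 1 := by
  apply G.ext
  apply ext4 <;> simp [G.one_m, u_m]

theorem u_inj {s t x θ s' t' x' θ' : F} (h : u s t x θ = u s' t' x' θ') :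
    s = s' ∧ t = t' ∧ x = x' ∧ θ = θ' := by
  have h1 := congrArg G.m h
  exact ⟨congrFun₂ h1 0 1, congrFun₂ h1 1 2, congrFun₂ h1 0 2, congrFun₂ h1 0 3⟩

theorem u_eq_one {s t x θ : F} : u s t x θ = 1 ↔ s = 0 ∧ t = 0 ∧ x = 0 ∧ θ = 0 :=
  ⟨fun h => u_inj (h.trans u_zero.symm), by rintro ⟨rfl, rfl, rfl, rfl⟩; exact u_zero⟩

theorem u_congr {s t x θ s' t' x' θ' : F} (h1 : s = s') (h2 : t = t') (h3 : x = x') (h4 : θ = θ') :
    u s t x θ = u s' t' x' θ' := by rw [h1, h2, h3, h4]

theorem u_inv (s t x θ : F) : (u s t x θ)⁻¹ = u s t (x + s * t) θ := by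
  rw [inv_eq_iff_mul_eq_one, u_mul, u_eq_one]
  grind

theorem u_sq (s t x θ : F) : u s t x θ * u s t x θ = u 0 0 (s * t) (s ^ 2 * t) := by
  rw [u_mul]; apply u_congr <;> grind

theorem u_conj (s t x θ s' t' x' θ' : F) : u s t x θ * u s' t' x' θ' * (u s t x θ)⁻¹ =
    u s' t' (x' + s * t' + s' * t) (θ' + s ^ 2 * t' + s * s' * t') := by
  rw [u_inv, u_mul, u_mul]; apply u_congr <;> grind

theorem u_smul (s t x θ : F) (v : V F) : u s t x θ • v =
    ![v 0 + s * v 1 + x * v 2 + θ * v 3, v 1 + t * v 2 + (x + s * t) * v 3, v 2 + s * v 3, v 3] := by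
  apply vext <;> simp [sm, u_m]

/-- the torus -/
def h (l m : F) (hl : l ≠ 0) (hm : m ≠ 0) : G F :=
  ofB !![l, 0, 0, 0; 0, m, 0, 0; 0, 0, m⁻¹, 0; 0, 0, 0, l⁻¹] (by
    intro i j
    fin_cases i <;> fin_cases j <;> simp [nM, hl, hm])

theorem h_m (l m : F) (hl : l ≠ 0) (hm : m ≠ 0) :
    (h l m hl hm).m = !![l, 0, 0, 0; 0, m, 0, 0; 0, 0, m⁻¹, 0; 0, 0, 0, l⁻¹] := rfl

theorem h_conj (l m : F) (hl : l ≠ 0) (hm : m ≠ 0) (s t x θ : F) :
    h l m hl hm * u s t x θ * (h l m hl hm)⁻¹ =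
      u (l / m * s) (m ^ 2 * t) (l * m * x) (l ^ 2 * θ) := by
  rw [mul_inv_eq_iff_eq_mul]
  apply G.ext
  apply ext4 <;> simp [G.mul_m, u_m, h_m, mul4] <;> field_simp

/-- transvections -/
def tv (v : V F) : G F :=
  ofB (Matrix.of fun i j => (1 : Matrix (Fin 4) (Fin 4) F) i j + v i * v j.rev) (by
    intro i j
    fin_cases i <;> fin_cases j <;> simp [nM, Fin.rev] <;> grind)

theorem tv_m (v : V F) (i j : Fin 4) :
    (tv v).m i j = (1 : Matrix (Fin 4) (Fin 4) F) i j + v i * v j.rev := rfl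

theorem tv_smul (v w : V F) : tv v • w = w + B w v • v := by
  apply vext <;> simp [sm, tv_m, B_apply, Fin.rev] <;> ring

theorem tv_zero : tv (0 : V F) = 1 := G.ext_v fun w => by simp [tv_smul]

theorem tv_conj (g : G F) (v : V F) : g * tv v * g⁻¹ = tv (g • v) := G.ext_v fun w => by
  simp only [mul_smul, tv_smul, smul_add, smul_inv_smul, smul_smul', B_right g w]

theorem tv_sq (v : V F) : tv v * tv v = 1 := G.ext_v fun w => by
  simp [mul_smul, tv_smul, add_assoc, vadd_self]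

theorem tv_inj {u v : V F} (h : tv u = tv v) : u = v := by
  rw [← vadd_eq_zero]
  apply B_nd
  intro w
  have h1 : B w (tv u • w) = B w (tv v • w) := by rw [h]
  simp only [tv_smul, map_add, map_smul, smul_eq_mul, B_self, zero_add] at h1 ⊢
  have : (B w u + B w v) ^ 2 = 0 := by grind
  exact pow_eq_zero_iff two_ne_zero |>.1 this

theorem tv_l (a b : F) : tv ![a, b, 0, 0] = u 0 (b ^ 2) (a * b) (a ^ 2) := by
  apply G.ext
  apply ext4 <;> simp [tv_m, u_m, Fin.rev] <;> ring

end Cfsg.Agent.H9.S4
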