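import Cfsg.Agent.H9.S4.A

/-! `Sp₄` in characteristic two: the exceptional isogeny, parabolic subgroups, normal forms. -/

set_option autoImplicit false
set_option linter.unusedSectionVars false
open Matrix Cfsg.Lie Cfsg.Agent.H4.Suz

namespace Cfsg.Agent.H9.S4

variable {F : Type*} [Field F] [CharP F 2]

theorem star4_mul (A B : G F) : star4 (A * B).m = star4 A.m * star4 B.m := by
  ext p r
  have h1 := A.orth' (pairOf p).1 (pairOf p).2
  have h2 := B.orth (pairOf r).1 (pairOf r).2
  have e : ∀ p, (nM : Matrix (Fin 4) (Fin 4) F) (pairOf p).1 (pairOf p).2 = 0 := by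
    intro p; fin_cases p <;> rfl
  rw [e] at h1 h2
  simp only [G.mul_m, mul4, star4, Matrix.of_apply]
  simp only [show pairOf 0 = (0, 1) from rfl, show pairOf 1 = (0, 2) from rfl,
    show pairOf 2 = (1, 3) from rfl, show pairOf 3 = (2, 3) from rfl]
  grind

theorem star4_one : star4 (1 : Matrix (Fin 4) (Fin 4) F) = 1 := by
  apply ext4 <;> simp [star4, pairOf, Matrix.one_apply]

theorem star4_inv (A : G F) : star4 (A⁻¹).m = nM * (star4 A.m)ᵀ * nM := by
  ext p r
  rw [mul_nM_apply, nM_mul_apply]
  fin_cases p <;> fin_cases r <;> simp [star4, pairOf, G.inv_apply, Fin.rev] <;> ring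

/-- the exceptional isogeny -/
def st : G F →* G F where
  toFun A := ⟨star4 A.m, by
    have h := star4_mul A⁻¹ A
    rw [inv_mul_cancel, G.one_m, star4_one, star4_inv] at h
    calc _ = nM * (nM * (star4 A.m)ᵀ * nM * star4 A.m) := by
          simp only [← Matrix.mul_assoc, nM_mul_nM, Matrix.one_mul]
      _ = nM := by rw [← h, Matrix.mul_one]⟩
  map_one' := G.ext star4_one
  map_mul' A B := G.ext (star4_mul A B)

theorem st_m (A : G F) : (st A).m = star4 A.m := rfl

theorem st_apply (A : G F) (p r : Fin 4) : (st A).m p r =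
    A.m (pairOf p).1 (pairOf r).1 * A.m (pairOf p).2 (pairOf r).2 -
      A.m (pairOf p).2 (pairOf r).1 * A.m (pairOf p).1 (pairOf r).2 := rfl

theorem st_u (s t x θ : F) :
    st (u s t x θ) = u t (s ^ 2) (θ + s * x + s ^ 2 * t) (t * θ + x ^ 2 + x * s * t) := by
  apply G.ext
  apply ext4 <;> simp [st_m, star4, pairOf, u_m] <;> grind

/-- the Frobenius map -/
def fr : G F →* G F where
  toFun A := ⟨A.m.map (frobenius F 2), by
    have h : (nM : Matrix (Fin 4) (Fin 4) F).map (frobenius F 2) = nM := by
      apply ext4 <;> simp [nM]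
    nth_rewrite 1 [← h]
    rw [← Matrix.transpose_map, ← Matrix.map_mul, ← Matrix.map_mul, A.sp, h]⟩
  map_one' := G.ext (Matrix.map_one _ (map_zero _) (map_one _))
  map_mul' A B := G.ext Matrix.map_mul

theorem fr_apply (A : G F) (i j : Fin 4) : (fr A).m i j = A.m i j ^ 2 := rfl

/-- the linear action -/
def toL : G F →* (V F ≃ₗ[F] V F) := DistribMulAction.toModuleAut F (V F)

theorem toL_apply (g : G F) (v : V F) : toL g v = g • v := rfl

variable [Finite F]

theorem exists_sq (a : F) : ∃ b, b ^ 2 = a := (bijective_frobenius F 2).2 a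

theorem eq_top_of_full {H : Subgroup (G F)} (h : ∀ v, Sp.Full B (H.map toL) v) : H = ⊤ := by
  rw [eq_top_iff]
  intro g _
  have hM : H.map toL ≤ Sp.Sp B := by
    rintro _ ⟨g, -, rfl⟩ u v
    exact B_smul g u v
  obtain ⟨k, hk, e⟩ := Sp.Sp_le symp hM h (show toL g ∈ Sp.Sp B from fun u v => B_smul g u v)
  have : k = g := G.ext_v fun v => by rw [← toL_apply, e, toL_apply]
  exact this ▸ hk

theorem full_of {H : Subgroup (G F)} {v : V F} (h : ∀ c : F, tv (c • v) ∈ H) :
    Sp.Full B (H.map toL) v := by
  intro c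
  obtain ⟨b, rfl⟩ := exists_sq c
  refine ⟨_, ⟨_, h b, rfl⟩, fun x => ?_⟩
  rw [toL_apply, tv_smul, map_smul, smul_smul, smul_eq_mul]
  congr 2; ring

theorem st_st (A : G F) : st (st A) = fr A := by
  have : (st.comp st).eqLocus (fr : G F →* G F) = ⊤ := eq_top_of_full fun v => full_of fun c => by
    generalize c • v = w
    change st (st (tv w)) = fr (tv w)
    apply G.ext
    apply ext4 <;> simp [st_apply, fr_apply, pairOf, tv_m, Fin.rev] <;> grind
  exact (show A ∈ (st.comp st).eqLocus fr from this ▸ trivial)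

theorem fr_inj : Function.Injective (fr : G F →* G F) := fun A B h => by
  ext i j
  exact frobenius_inj F 2 (congrFun₂ (congrArg G.m h) i j)

theorem st_inj : Function.Injective (st : G F →* G F) := fun A B h =>
  fr_inj (by rw [← st_st, h, st_st])

theorem st_surj : Function.Surjective (st : G F →* G F) := Finite.surjective_of_injective st_inj

end Cfsg.Agent.H9.S4
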