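import Cfsg.Agent.H9.S4.A2

/-! `Sp₄` in characteristic two: parabolic subgroups, normal forms. -/

set_option autoImplicit false
set_option linter.unusedSectionVars false
open Matrix Cfsg.Lie Cfsg.Agent.H4.Suz

namespace Cfsg.Agent.H9.S4

variable {F : Type*} [Field F] [CharP F 2]

/-- the unitriangular group -/
def U0 : Subgroup (G F) where
  carrier := {g | ∃ s t x θ, g = u s t x θ}
  mul_mem' := by
    rintro _ _ ⟨s, t, x, θ, rfl⟩ ⟨s', t', x', θ', rfl⟩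
    exact ⟨_, _, _, _, u_mul ..⟩
  one_mem' := ⟨0, 0, 0, 0, u_zero.symm⟩
  inv_mem' := by
    rintro _ ⟨s, t, x, θ, rfl⟩
    exact ⟨_, _, _, _, u_inv ..⟩

theorem u_mem (s t x θ : F) : u s t x θ ∈ U0 := ⟨s, t, x, θ, rfl⟩

theorem U0_four {g : G F} (hg : g ∈ U0) : g ^ 4 = 1 := by
  obtain ⟨s, t, x, θ, rfl⟩ := hg
  rw [show 4 = 2 + 2 from rfl, pow_add, sq, u_sq, u_sq, u_eq_one]
  simp

theorem row3 {g : G F} (h1 : g.m 1 0 = 0) (h2 : g.m 2 0 = 0) (h3 : g.m 3 0 = 0) :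
    g.m 0 0 * g.m 3 3 = 1 ∧ g.m 3 1 = 0 ∧ g.m 3 2 = 0 ∧
      g.m 1 1 * g.m 2 2 + g.m 1 2 * g.m 2 1 = 1 := by
  have o1 : _ = (0 : F) := g.orth 0 1
  have o2 : _ = (0 : F) := g.orth 0 2
  have o3 : _ = (1 : F) := g.orth 0 3
  have o4 : _ = (1 : F) := g.orth 1 2
  grind

/-- the point stabiliser -/
def Pp : Subgroup (G F) where
  carrier := {g | g.m 1 0 = 0 ∧ g.m 2 0 = 0 ∧ g.m 3 0 = 0}
  mul_mem' := by
    rintro a b ⟨h1, h2, h3⟩ ⟨k1, k2, k3⟩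
    simp [G.mul_apply, *]
  one_mem' := by simp [G.one_m]
  inv_mem' := by
    rintro a ⟨h1, h2, h3⟩
    obtain ⟨-, k1, k2, -⟩ := row3 h1 h2 h3
    exact ⟨(G.inv_apply ..).trans k2, (G.inv_apply ..).trans k1, (G.inv_apply ..).trans h3⟩

/-- the line stabiliser -/
def Pl : Subgroup (G F) where
  carrier := {g | g.m 2 0 = 0 ∧ g.m 3 0 = 0 ∧ g.m 2 1 = 0 ∧ g.m 3 1 = 0}
  mul_mem' := by
    rintro a b ⟨h1, h2, h3, h4⟩ ⟨k1, k2, k3, k4⟩
    simp [G.mul_apply, *]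
  one_mem' := by simp [G.one_m]
  inv_mem' := by
    rintro a ⟨h1, h2, h3, h4⟩
    exact ⟨(G.inv_apply ..).trans h4, (G.inv_apply ..).trans h2, (G.inv_apply ..).trans h3,
      (G.inv_apply ..).trans h1⟩

theorem u_Pp (s t x θ : F) : u s t x θ ∈ Pp := ⟨rfl, rfl, rfl⟩
theorem u_Pl (s t x θ : F) : u s t x θ ∈ Pl := ⟨rfl, rfl, rfl, rfl⟩
theorem U0_le_Pp : (U0 : Subgroup (G F)) ≤ Pp := by rintro _ ⟨s, t, x, θ, rfl⟩; exact u_Pp ..
theorem U0_le_Pl : (U0 : Subgroup (G F)) ≤ Pl := by rintro _ ⟨s, t, x, θ, rfl⟩; exact u_Pl ..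

theorem Pp_smul {g : G F} (hg : g ∈ Pp) : g • (e 0 : V F) = g.m 0 0 • e 0 := by
  obtain ⟨h1, h2, h3⟩ := hg
  apply vext <;> simp [smul_e, e_apply, *]

theorem mem_Pp_of {g : G F} {c : F} (h : g • (e 0 : V F) = c • e 0) : g ∈ Pp :=
  ⟨by simpa [smul_e, e_apply] using congrFun h 1, by simpa [smul_e, e_apply] using congrFun h 2,
    by simpa [smul_e, e_apply] using congrFun h 3⟩

theorem Pp_ne {g : G F} (hg : g ∈ Pp) : g.m 0 0 ≠ 0 :=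
  left_ne_zero_of_mul_eq_one (row3 hg.1 hg.2.1 hg.2.2).1

theorem Pp_mul00 {a b : G F} (hb : b ∈ Pp) : (a * b).m 0 0 = a.m 0 0 * b.m 0 0 := by
  simp [G.mul_apply, hb.1, hb.2.1, hb.2.2]

theorem mem_U0_of {g : G F} (hg : g ∈ Pp) (h0 : g.m 0 0 = 1) (h1 : g.m 1 1 = 1)
    (h2 : g.m 2 1 = 0) : g = u (g.m 0 1) (g.m 1 2) (g.m 0 2) (g.m 0 3) := by
  obtain ⟨k0, k1, k2, k3⟩ := row3 hg.1 hg.2.1 hg.2.2
  have o1 : _ = (0 : F) := g.orth 1 3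
  have o2 : _ = (0 : F) := g.orth 2 3
  have := hg.1
  have := hg.2.1
  have := hg.2.2
  apply G.ext
  apply ext4 <;> simp [u_m] <;> grind

theorem st_Pp {g : G F} (hg : g ∈ Pp) : st g ∈ Pl := by
  obtain ⟨-, k1, k2, -⟩ := row3 hg.1 hg.2.1 hg.2.2
  refine ⟨?_, ?_, ?_, ?_⟩ <;> simp [st_apply, pairOf, hg.1, hg.2.1, hg.2.2, k1, k2]

theorem st_Pl {g : G F} (hg : g ∈ Pl) : st g ∈ Pp := by
  obtain ⟨h1, h2, h3, h4⟩ := hg
  refine ⟨?_, ?_, ?_⟩ <;> simp [st_apply, pairOf, *]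

theorem conj_Qp {g : G F} (hg : g ∈ Pp) (s x θ : F) : g * u s 0 x θ * g⁻¹ =
    u (g.m 0 0 * (g.m 2 1 * x + g.m 2 2 * s)) 0 (g.m 0 0 * (g.m 1 1 * x + g.m 1 2 * s))
      (g.m 0 0 ^ 2 * θ) := by
  obtain ⟨k0, k1, k2, k3⟩ := row3 hg.1 hg.2.1 hg.2.2
  have o1 : _ = (0 : F) := g.orth 1 3
  have o2 : _ = (0 : F) := g.orth 2 3
  rw [mul_inv_eq_iff_eq_mul]
  apply G.ext
  apply ext4 <;> simp [G.mul_m, mul4, u_m, hg.1, hg.2.1, hg.2.2, k1, k2] <;> grind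

/-- the square-root functional of an involution -/
def Dv (g : G F) (a : V F) : Prop := ∀ w, B w (g • w) = B w a ^ 2

theorem Dv.conj {g : G F} {a : V F} (h : Dv g a) (k : G F) : Dv (k * g * k⁻¹) (k • a) := fun w => by
  rw [mul_smul, mul_smul, B_right, h, B_right]

theorem Dv.uniq {g : G F} {a b : V F} (h : Dv g a) (h' : Dv g b) : a = b := by
  rw [← vadd_eq_zero]
  apply B_nd
  intro w
  have h1 := (h w).symm.trans (h' w)
  have : (B w a + B w b) ^ 2 = 0 := by grind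
  rw [map_add]
  exact pow_eq_zero_iff two_ne_zero |>.1 this

theorem Dv_p (s x r : F) : Dv (u s 0 x (r ^ 2)) (r • e 0) := fun w => by
  simp [u_smul, B_apply, e_apply]; grind

theorem Dv_l (x r r' : F) : Dv (u 0 (r' ^ 2) x (r ^ 2)) ![r, r', 0, 0] := fun w => by
  simp [u_smul, B_apply]; grind

/-- the middle block -/
def mid : (Pp : Subgroup (G F)) →* G F where
  toFun g := ofB !![1, 0, 0, 0; 0, g.1.m 1 1, g.1.m 1 2, 0; 0, g.1.m 2 1, g.1.m 2 2, 0; 0, 0, 0, 1]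
    (by
      have := (row3 g.2.1 g.2.2.1 g.2.2.2).2.2.2
      intro i j
      fin_cases i <;> fin_cases j <;> simp [nM] <;> grind)
  map_one' := by
    apply G.ext
    apply ext4 <;> simp [ofB, G.one_m]
  map_mul' a b := by
    obtain ⟨-, k1, k2, -⟩ := row3 b.2.1 b.2.2.1 b.2.2.2
    apply G.ext
    apply ext4 <;> simp [ofB, G.mul_m, mul4, a.2.1, a.2.2.1, k1, k2]

theorem mid_m (g : (Pp : Subgroup (G F))) : (mid g).m =
    !![1, 0, 0, 0; 0, g.1.m 1 1, g.1.m 1 2, 0; 0, g.1.m 2 1, g.1.m 2 2, 0; 0, 0, 0, 1] := rfl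

variable [Finite F]

theorem st_mem_Pp {g : G F} : st g ∈ Pp ↔ g ∈ Pl := by
  refine ⟨fun h => ?_, st_Pl⟩
  have := st_Pp h
  rw [st_st] at this
  simpa [Pl, fr_apply] using this

theorem st_mem_Pl {g : G F} : st g ∈ Pl ↔ g ∈ Pp := by
  refine ⟨fun h => ?_, st_Pp⟩
  have := st_Pl h
  rw [st_st] at this
  simpa [Pp, fr_apply] using this

theorem st_mem_U0 {g : G F} : st g ∈ U0 ↔ g ∈ U0 := by
  refine ⟨fun h => ?_, by rintro ⟨s, t, x, θ, rfl⟩; exact ⟨_, _, _, _, st_u ..⟩⟩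
  have h1 := st_mem_Pl.1 (U0_le_Pl h)
  have h2 := st_mem_Pp.1 (U0_le_Pp h)
  obtain ⟨s, t, x, θ, h3⟩ := h
  have h4 := congrArg st h3
  rw [st_st, st_u] at h4
  have e0 : g.m 0 0 ^ 2 = 1 := congrFun₂ (congrArg G.m h4) 0 0
  have e1 : g.m 1 1 ^ 2 = 1 := congrFun₂ (congrArg G.m h4) 1 1
  exact ⟨_, _, _, _, mem_U0_of h1 (by grind) (by grind) h2.2.2.1⟩

theorem mem_Pp_of_conj {g : G F} {s x θ s' x' θ' : F} (hθ : θ ≠ 0)
    (h : g * u s 0 x θ * g⁻¹ = u s' 0 x' θ') : g ∈ Pp := by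
  obtain ⟨r, rfl⟩ := exists_sq θ
  obtain ⟨r', rfl⟩ := exists_sq θ'
  have h1 := ((Dv_p s x r).conj g).uniq (h ▸ Dv_p s' x' r')
  have hr : r ≠ 0 := by rintro rfl; simp at hθ
  refine mem_Pp_of (c := r⁻¹ * r') ?_
  rw [mul_smul, ← h1, smul_smul', smul_smul, inv_mul_cancel₀ hr, one_smul]

theorem cent_z {g : G F} {x θ : F} (hx : x ≠ 0) (hθ : θ ≠ 0)
    (h : g * u 0 0 x θ = u 0 0 x θ * g) : g ∈ U0 := by
  rw [← mul_inv_eq_iff_eq_mul] at h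
  have hg := mem_Pp_of_conj hθ h
  rw [conj_Qp hg] at h
  obtain ⟨h1, -, h2, h3⟩ := u_inj h
  have h0 : g.m 0 0 = 1 := by grind
  exact ⟨_, _, _, _, mem_U0_of hg h0 (by grind) (by grind)⟩

theorem fix_vec {P : Type*} [Group P] (hP : IsPGroup 2 P) (ρ : P →* G F) (W : Submodule F (V F))
    (hW : ∀ p, ∀ w ∈ W, ρ p • w ∈ W) (hne : W ≠ ⊥) : ∃ w ∈ W, w ≠ 0 ∧ ∀ p, ρ p • w = w := by
  let _ : MulAction P W :=
    { smul p w := ⟨ρ p • w.1, hW p _ w.2⟩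
      one_smul w := Subtype.ext (by change ρ 1 • w.1 = _; simp)
      mul_smul a b w := Subtype.ext (by change ρ (a * b) • w.1 = ρ a • ρ b • w.1; simp [mul_smul]) }
  obtain ⟨w, hw, hw0⟩ := Submodule.exists_mem_ne_zero_of_ne_bot hne
  have h2 : 2 ∣ Nat.card W := by
    have := addOrderOf_dvd_natCard (⟨w, hw⟩ : W)
    rwa [addOrderOf_eq_prime (p := 2) (by rw [two_nsmul]; exact Subtype.ext (vadd_self w))
      (fun h => hw0 (congrArg Subtype.val h))] at this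
  obtain ⟨b, hb, hb0⟩ := hP.exists_fixed_point_of_prime_dvd_card_of_fixed_point W h2
    (a := 0) (fun p => Subtype.ext (smul_zero (ρ p)))
  exact ⟨b.1, b.2, fun h => hb0 (Subtype.ext h.symm), fun p => congrArg Subtype.val (hb p)⟩

theorem flag {P : Type*} [Group P] (hP : IsPGroup 2 P) (ρ : P →* G F) :
    ∃ g : G F, ∀ p, g * ρ p * g⁻¹ ∈ U0 := by
  obtain ⟨v, -, hv0, hv⟩ := fix_vec hP ρ ⊤ (fun _ _ _ => trivial) top_ne_bot
  obtain ⟨g, hg⟩ := witt_a hv0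
  have h1 : ∀ p, (g⁻¹ * ρ p * g) • (e 0 : V F) = (1 : F) • e 0 := fun p => by
    rw [mul_smul, mul_smul, hg, hv, ← hg, inv_smul_smul, one_smul]
  let ρ' : P →* (Pp : Subgroup (G F)) :=
    ((MulAut.conj g⁻¹).toMonoidHom.comp ρ).codRestrict _ fun p => mem_Pp_of (c := 1) (by simpa using h1 p)
  have hρ : ∀ p, (ρ' p).1 = g⁻¹ * ρ p * g := fun p => by simp [ρ']
  let W : Submodule F (V F) := LinearMap.ker (LinearMap.proj 0) ⊓ LinearMap.ker (LinearMap.proj 3)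
  obtain ⟨w, ⟨hw0, hw3⟩, hw, hfix⟩ := fix_vec hP (mid.comp ρ') W (by
    rintro p w ⟨h0, h3⟩
    simp only [SetLike.mem_coe, LinearMap.mem_ker, LinearMap.proj_apply] at h0 h3
    constructor <;> simp [sm, mid_m, h0, h3]) (fun h => e_ne (F := F) 1 (by
      rw [← Submodule.mem_bot F, ← h]
      constructor <;> simp [e_apply]))
  simp only [SetLike.mem_coe, LinearMap.mem_ker, LinearMap.proj_apply] at hw0 hw3
  obtain ⟨k, hk0, hk1⟩ := witt_b (a := e 0) (b := w) (e_ne 0) (fun c hc => hw (by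
    have : c = 0 := by simpa [hc, e_apply] using hw0
    rw [hc, this, zero_smul])) (by rw [B_comm, B_e]; exact hw3)
  refine ⟨k⁻¹ * g⁻¹, fun p => ?_⟩
  have e0 : (k⁻¹ * g⁻¹ * ρ p * (k⁻¹ * g⁻¹)⁻¹) • (e 0 : V F) = (1 : F) • e 0 := by
    rw [show k⁻¹ * g⁻¹ * ρ p * (k⁻¹ * g⁻¹)⁻¹ = k⁻¹ * (g⁻¹ * ρ p * g) * k by group, mul_smul, hk0,
      mul_smul, h1, one_smul, inv_smul_eq_iff, hk0]
  have e1 : (k⁻¹ * g⁻¹ * ρ p * (k⁻¹ * g⁻¹)⁻¹) • (e 1 : V F) =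
      e 1 + ((ρ' p).1 • w) 0 • e 0 := by
    rw [show k⁻¹ * g⁻¹ * ρ p * (k⁻¹ * g⁻¹)⁻¹ = k⁻¹ * (g⁻¹ * ρ p * g) * k by group, mul_smul, hk1,
      mul_smul, inv_smul_eq_iff, smul_add, hk1, smul_smul', hk0, ← hρ]
    have f1 := congrFun (hfix p) 1
    have f2 := congrFun (hfix p) 2
    obtain ⟨-, k1, k2, -⟩ := row3 (ρ' p).2.1 (ρ' p).2.2.1 (ρ' p).2.2.2
    simp only [MonoidHom.comp_apply, sm, mid_m] at f1 f2
    apply vext <;> simp [sm, e_apply, hw0, hw3, k1, k2]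
    · simpa using f1
    · simpa using f2
  exact ⟨_, _, _, _, mem_U0_of (mem_Pp_of e0) (by simpa [smul_e, e_apply] using congrFun e0 0)
    (by simpa [smul_e, e_apply] using congrFun e1 1)
    (by simpa [smul_e, e_apply] using congrFun e1 2)⟩

/-- normal form inside `Q_p` -/
theorem nf_p (s x θ : F) : ∃ g ∈ (Pp : Subgroup (G F)), g.m 0 0 = 1 ∧ ∃ x', (x' = 0 → s = 0 ∧ x = 0) ∧
    g * u s 0 x θ * g⁻¹ = u 0 0 x' θ := by
  by_cases hs : s = 0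
  · exact ⟨1, one_mem _, by simp [G.one_m], x, fun h => ⟨hs, h⟩, by simp [hs]⟩
  · let g : G F := ofB !![1, 0, 0, 0; 0, 0, 1, 0; 0, 1, x / s, 0; 0, 0, 0, 1] (by
      intro i j
      fin_cases i <;> fin_cases j <;> simp [nM] <;> grind)
    have hg : g ∈ Pp := ⟨rfl, rfl, rfl⟩
    refine ⟨g, hg, rfl, s, fun h => absurd h hs, ?_⟩
    rw [conj_Qp hg]
    apply u_congr <;> simp [g, ofB]
    field_simp
    grind

theorem nf {A : G F} (hA : A * A = 1) : ∃ g x θ, g * A * g⁻¹ = u 0 0 x θ := by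
  have hP : IsPGroup 2 (Subgroup.zpowers A) := by
    refine IsPGroup.of_card_dvd_pow (n := 1) ?_
    rw [Nat.card_zpowers, pow_one]
    exact orderOf_dvd_of_pow_eq_one (by rw [sq, hA])
  obtain ⟨g, hg⟩ := flag hP (Subgroup.subtype _)
  obtain ⟨s, t, x, θ, h⟩ := hg ⟨A, Subgroup.mem_zpowers A⟩
  change g * A * g⁻¹ = _ at h
  have h2 : u s t x θ * u s t x θ = 1 := by rw [← h, conj_mul, hA]; simp
  rw [u_sq, u_eq_one] at h2
  rcases mul_eq_zero.1 h2.2.2.1 with rfl | rfl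
  · have h3 := st_u 0 t x θ
    rw [show (0 : F) ^ 2 = 0 by simp] at h3
    obtain ⟨k, -, -, x', -, hk⟩ := nf_p t (θ + 0 * x + 0 * t) (t * θ + x ^ 2 + x * 0 * t)
    obtain ⟨k, rfl⟩ := st_surj k
    obtain ⟨r, hr⟩ := exists_sq (t * θ + x ^ 2 + x * 0 * t)
    refine ⟨k * g, r, x', st_inj ?_⟩
    rw [show k * g * A * (k * g)⁻¹ = k * (g * A * g⁻¹) * k⁻¹ by group, h, map_mul, map_mul, map_inv,
      h3, hk, st_u, ← hr]
    apply u_congr <;> simp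
  · obtain ⟨k, -, -, x', -, hk⟩ := nf_p s x θ
    exact ⟨k * g, x', θ, by rw [← hk, ← h]; group⟩

end Cfsg.Agent.H9.S4
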