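import Cfsg.Agent.H9.Sp.Sub1
import Cfsg.Agent.H8.M3B

/-! Strongly embedded subgroups in groups whose involution centralisers have exponent four. -/

set_option autoImplicit false
set_option linter.unusedSectionVars false

namespace Cfsg.Agent.H9.S4

open Subgroup

variable {Γ : Type*} [Group Γ] [Finite Γ]

/-- an involution lying in a subgroup containing an odd-index subgroup is conjugate into it -/
theorem conj_into {T M : Subgroup Γ} (hTM : T ≤ M) (hT : Odd T.index) {i : Γ} (hi : i ∈ M)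
    (h2 : i * i = 1) : ∃ m ∈ M, m⁻¹ * i * m ∈ T := by
  have hP : IsPGroup 2 (zpowers (⟨i, hi⟩ : M)) := by
    refine IsPGroup.of_card_dvd_pow (n := 1) ?_
    rw [Nat.card_zpowers, pow_one]
    exact orderOf_dvd_of_pow_eq_one (Subtype.ext (by simp [sq, h2]))
  have hodd : ¬ 2 ∣ Nat.card (M ⧸ T.subgroupOf M) := fun h =>
    (Nat.not_even_iff_odd.2 hT) (even_iff_two_dvd.2 (h.trans (relIndex_dvd_index_of_le hTM)))
  obtain ⟨q, hq⟩ := hP.nonempty_fixed_point_of_prime_not_dvd_card (M ⧸ T.subgroupOf M) hodd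
  induction q using QuotientGroup.induction_on with | H m => ?_
  have : (⟨i, hi⟩ : M) • (m : M ⧸ T.subgroupOf M) = m := hq ⟨_, mem_zpowers _⟩
  rw [MulAction.Quotient.smul_coe, smul_eq_mul, eq_comm, QuotientGroup.eq, ← mul_assoc] at this
  exact ⟨m, m.2, this⟩

/-- centralisers of involutions have exponent four -/
def CIT (Γ : Type*) [Group Γ] : Prop :=
  ∀ i d : Γ, i * i = 1 → i ≠ 1 → d * i = i * d → d ^ 4 = 1

/-- strongly embedded -/
def SE (M : Subgroup Γ) : Prop :=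
  ∀ g, ∀ i ∈ M, i * i = 1 → i ≠ 1 → g * i * g⁻¹ ∈ M → g ∈ M

omit [Finite Γ] in
theorem inv_self {w : Γ} (h : w * w = 1) : w⁻¹ = w := inv_eq_of_mul_eq_one_right h

omit [Finite Γ] in
theorem pow4 (d : Γ) : d ^ 4 = d * d * (d * d) := by
  rw [show 4 = 2 + 2 from rfl, pow_add, sq]

omit [Finite Γ] in
theorem conj_not_mem {M : Subgroup Γ} {t w : Γ} (ht : t ∈ M) (hw : w ∉ M) : t * w * t⁻¹ ∉ M :=
  fun h => hw (by
    have := M.mul_mem (M.mul_mem (M.inv_mem ht) h) ht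
    simpa [mul_assoc] using this)

section SE
variable {M : Subgroup Γ} (hM : SE M) {z : Γ} (hz : z ∈ M) (hz2 : z * z = 1) (hz1 : z ≠ 1)
include hM

theorem SE.swap {i j g : Γ} (hi : i ∈ M) (hi2 : i * i = 1) (hj : j ∈ M)
    (hj2 : j * j = 1) (hi1 : i ≠ 1) (hj1 : j ≠ 1) (hg : g ∉ M) :
    ∃ w, w * w = 1 ∧ w * i * w⁻¹ = g * j * g⁻¹ := by
  rcases Sp.dihedral (M := ⊤) (i := i) (j := g * j * g⁻¹) hi2 (by rw [conj_mul, hj2]; simp)
    trivial trivial with ⟨s, -, h⟩ | ⟨c, -, c1, c2, h1, h2, -⟩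
  · exact ⟨s, h⟩
  · have hc : c ∈ M := hM c i hi hi2 hi1 (h1.symm ▸ hi)
    have h3 : g⁻¹ * c * g ∈ M := hM _ j hj hj2 hj1 (by
      rw [show g⁻¹ * c * g * j * (g⁻¹ * c * g)⁻¹ = g⁻¹ * (c * (g * j * g⁻¹) * c⁻¹) * g by group, h2]
      simpa [mul_assoc] using hj)
    exact absurd (by simpa using M.inv_mem (hM g⁻¹ c hc c2 c1 (by simpa using h3))) hg

include hz hz2 hz1 in
theorem SE.exists_inv {g : Γ} (hg : g ∉ M) : ∃ w, w * w = 1 ∧ g⁻¹ * w ∈ M := by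
  obtain ⟨w, h1, h2⟩ := hM.swap hz hz2 hz hz2 hz1 hz1 hg
  refine ⟨w, h1, hM _ z hz hz2 hz1 ?_⟩
  rw [show g⁻¹ * w * z * (g⁻¹ * w)⁻¹ = g⁻¹ * (w * z * w⁻¹) * g by group, h2]
  simpa [mul_assoc] using hz

theorem SE.trans {w i j : Γ} (hw : w * w = 1) (hwM : w ∉ M) (hi : i ∈ M) (hi2 : i * i = 1)
    (hi1 : i ≠ 1) (hj : j ∈ M) (hj2 : j * j = 1) (hj1 : j ≠ 1) :
    ∃ k ∈ M, w * k * w = k⁻¹ ∧ k * i * k⁻¹ = j := by
  obtain ⟨v, h1, h2⟩ := hM.swap hi hi2 hj hj2 hi1 hj1 hwM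
  have h3 : w * v * i * (w * v)⁻¹ = j := by
    rw [show w * v * i * (w * v)⁻¹ = w * (v * i * v⁻¹) * w⁻¹ by group, h2, inv_self hw]
    calc w * (w * j * w) * w = (w * w) * j * (w * w) := by group
      _ = j := by simp [hw]
  refine ⟨w * v, hM _ i hi hi2 hi1 (h3 ▸ hj), ?_, h3⟩
  rw [mul_inv_rev, inv_self hw, inv_self h1, ← mul_assoc, hw, one_mul]

omit [Finite Γ] in
theorem SE.four {w d : Γ} (hw : w * w = 1) (hwM : w ∉ M) (hd : d ∈ M) (hd' : w * d * w ∈ M)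
    (h4 : d ^ 4 = 1) : d = 1 := by
  have key : ∀ d ∈ M, w * d * w ∈ M → d * d = 1 → d = 1 := fun d hd hd' h => by
    by_contra h1
    exact hwM (hM w d hd h h1 (by rwa [inv_self hw]))
  refine key d hd hd' (key _ (M.mul_mem hd hd) ?_ (by rw [← h4, pow4]))
  have := M.mul_mem hd' hd'
  rwa [show w * d * w * (w * d * w) = w * d * (w * w) * d * w by group, hw, mul_one,
    mul_assoc w d d] at this

include hz hz2 hz1 in
theorem SE.inverts (hC : CIT Γ) {w d : Γ} (hw : w * w = 1) (hwM : w ∉ M) (hd : d ∈ M)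
    (hd' : w * d * w ∈ M) : w * d * w = d⁻¹ := by
  obtain ⟨k, hk, h1, h2⟩ := hM.trans hw hwM hz hz2 hz1 (j := d * z * d⁻¹)
    (M.mul_mem (M.mul_mem hd hz) (M.inv_mem hd)) (by rw [conj_mul, hz2]; simp)
    (by simpa using hz1)
  have h3 : k⁻¹ * d = 1 := hM.four hw hwM (M.mul_mem (M.inv_mem hk) hd) (by
    have := M.mul_mem (M.inv_mem (h1 ▸ M.inv_mem hk : w * k * w ∈ M)) hd'
    rwa [mul_inv_rev, mul_inv_rev, inv_self hw, show w * (k⁻¹ * w) * (w * d * w) =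
      w * k⁻¹ * (w * w) * d * w by group, hw, mul_one, mul_assoc w] at this)
    (hC z _ hz2 hz1 (by
      calc k⁻¹ * d * z = k⁻¹ * (d * z * d⁻¹) * d := by group
        _ = z * (k⁻¹ * d) := by rw [← h2]; group))
  rw [← inv_mul_eq_one.1 h3, h1]

include hz hz2 hz1 in
theorem SE.comm (hC : CIT Γ) {w d d' : Γ} (hw : w * w = 1) (hwM : w ∉ M) (hd : d ∈ M)
    (hd1 : w * d * w ∈ M) (hd' : d' ∈ M) (hd1' : w * d' * w ∈ M) : d * d' = d' * d := by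
  have e : w * (d * d') * w = (w * d * w) * (w * d' * w) := by
    rw [show w * d * w * (w * d' * w) = w * d * (w * w) * d' * w by group, hw]; group
  have h := hM.inverts hz hz2 hz1 hC hw hwM (M.mul_mem hd hd') (e ▸ M.mul_mem hd1 hd1')
  rw [e, hM.inverts hz hz2 hz1 hC hw hwM hd hd1, hM.inverts hz hz2 hz1 hC hw hwM hd' hd1',
    ← mul_inv_rev] at h
  exact (inv_injective h).symm

end SE

/-- the hypotheses of the doubly transitive case -/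
structure ZH (M T E : Subgroup Γ) (z : Γ) : Prop where
  se : SE M
  cit : CIT Γ
  TM : T ≤ M
  EM : E ≤ M
  nE : ∀ m ∈ M, ∀ e ∈ E, m * e * m⁻¹ ∈ E
  sqE : ∀ e ∈ E, e * e = 1
  invE : ∀ m ∈ M, m * m = 1 → m ∈ E
  zE : z ∈ E
  z1 : z ≠ 1
  cz : ∀ g, g ∈ T ↔ g * z = z * g
  big : ∃ e ∈ E, e ≠ 1 ∧ e ≠ z

namespace ZH
variable {M T E : Subgroup Γ} {z : Γ} (H : ZH M T E z)
include H

omit [Finite Γ] in
theorem four {t : Γ} (ht : t ∈ T) : t ^ 4 = 1 := H.cit z t (H.sqE z H.zE) H.z1 ((H.cz t).1 ht)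

theorem inverts {w d : Γ} (hw : w * w = 1) (hwM : w ∉ M) (hd : d ∈ M)
    (hd' : w * d * w ∈ M) : w * d * w = d⁻¹ :=
  H.se.inverts (H.EM H.zE) (H.sqE z H.zE) H.z1 H.cit hw hwM hd hd'

theorem comm {w d d' : Γ} (hw : w * w = 1) (hwM : w ∉ M) (hd : d ∈ M)
    (hd1 : w * d * w ∈ M) (hd' : d' ∈ M) (hd1' : w * d' * w ∈ M) : d * d' = d' * d :=
  H.se.comm (H.EM H.zE) (H.sqE z H.zE) H.z1 H.cit hw hwM hd hd1 hd' hd1'

theorem trans {w i j : Γ} (hw : w * w = 1) (hwM : w ∉ M) (hi : i ∈ E) (hi1 : i ≠ 1) (hj : j ∈ E)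
    (hj1 : j ≠ 1) : ∃ k ∈ M, w * k * w ∈ M ∧ k * i * k⁻¹ = j := by
  obtain ⟨k, hk, h1, h2⟩ := H.se.trans hw hwM (H.EM hi) (H.sqE i hi) hi1 (H.EM hj) (H.sqE j hj) hj1
  exact ⟨k, hk, h1 ▸ M.inv_mem hk, h2⟩

theorem uniq {w w' d : Γ} (hw : w * w = 1) (hwM : w ∉ M) (hw' : w' * w' = 1) (hwM' : w' ∉ M)
    (hd : d ∈ M) (h1 : w * d * w ∈ M) (h2 : w' * d * w' ∈ M) (hd1 : d ≠ 1) : w * w' ∈ M := by
  by_contra hg
  obtain ⟨v, hv, hvM⟩ := H.se.exists_inv (H.EM H.zE) (H.sqE z H.zE) H.z1 hg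
  rw [mul_inv_rev, inv_self hw, inv_self hw'] at hvM
  have e1 := H.inverts hw hwM hd h1
  have e2 := H.inverts hw' hwM' hd h2
  have hvM' : v ∉ M := fun h => hg (by
    have := M.inv_mem (M.mul_mem hvM (M.inv_mem h))
    simpa [inv_self hw, inv_self hw'] using this)
  obtain ⟨r, hr⟩ : ∃ r, r = w' * w * v := ⟨_, rfl⟩
  rw [← hr] at hvM
  have e3 : w' * w * d⁻¹ * (w' * w)⁻¹ = d⁻¹ := by
    rw [mul_inv_rev, inv_self hw, inv_self hw']
    have f1 : w * d⁻¹ * w = d := by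
      rw [← e1, show w * (w * d * w) * w = (w * w) * d * (w * w) by group, hw]; simp
    calc w' * w * d⁻¹ * (w * w') = w' * (w * d⁻¹ * w) * w' := by group
      _ = d⁻¹ := by rw [f1, e2]
  have e4 : v * d * v = d⁻¹ := H.inverts hv hvM' hd (by
    have : v * d * v = r⁻¹ * (w' * w * d⁻¹ * (w' * w)⁻¹)⁻¹ * r := by
      rw [hr, mul_inv_rev (w' * w), inv_self hv]; group
    rw [this, e3, inv_inv]
    exact M.mul_mem (M.mul_mem (M.inv_mem hvM) hd) hvM)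
  have e5 : r * d * r⁻¹ = d⁻¹ := by
    rw [hr, ← e3, ← e4, mul_inv_rev (w' * w), inv_self hv]; group
  have e6 : r * d⁻¹ * r⁻¹ = d := by
    rw [← conj_inv, e5, inv_inv]
  have e7 : ∀ n : ℕ, (r * r) ^ n * d = d * (r * r) ^ n := fun n =>
    (Commute.pow_left (show r * r * d = d * (r * r) by
      calc r * r * d = r * (r * d * r⁻¹) * r⁻¹ * (r * r) := by group
        _ = _ := by rw [e5, e6]) n).eq
  have h4 : d ^ 4 ≠ 1 := fun h => hd1 (H.se.four hw hwM hd h1 h)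
  have hN := pow_orderOf_eq_one (r * r)
  rcases Nat.even_or_odd' (orderOf (r * r)) with ⟨k, hk | hk⟩
  · have hpos := orderOf_pos (r * r)
    exact h4 (H.cit ((r * r) ^ k) d (by rw [← pow_add, ← two_mul, ← hk, hN])
      (pow_ne_one_of_lt_orderOf (by omega) (by omega)) (e7 k).symm)
  · have hc : Commute r (r * r) := by simp [Commute, SemiconjBy, mul_assoc]
    have hE : (r * r) ^ k * r ∈ E := H.invE _ (M.mul_mem (M.pow_mem (M.mul_mem hvM hvM) k) hvM) (by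
      rw [mul_assoc, ← mul_assoc r, (hc.pow_right k).eq, ← hN, hk, pow_succ, two_mul, pow_add]
      group)
    have h5 := E.mul_mem (H.nE d hd _ hE) (E.inv_mem hE)
    have h6 : d * ((r * r) ^ k * r) * d⁻¹ * ((r * r) ^ k * r)⁻¹ = d * d := by
      calc _ = d * ((r * r) ^ k * (r * d⁻¹ * r⁻¹) * ((r * r) ^ k)⁻¹) := by group
        _ = _ := by rw [e6, e7]; group
    rw [h6] at h5
    exact h4 (by rw [← H.sqE _ h5, pow4])

theorem decomp {w m : Γ} (hw : w * w = 1) (hwM : w ∉ M) (hm : m ∈ M) :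
    ∃ t ∈ T, ∃ d ∈ M, w * d * w ∈ M ∧ m = d * t := by
  obtain ⟨k, hk, h1, h2⟩ := H.trans hw hwM H.zE H.z1 (H.nE m hm z H.zE) (by simpa using H.z1)
  refine ⟨k⁻¹ * m, (H.cz _).2 ?_, k, hk, h1, by group⟩
  calc k⁻¹ * m * z = k⁻¹ * (m * z * m⁻¹) * m := by group
    _ = _ := by rw [← h2]; group

theorem cover {w m : Γ} (hw : w * w = 1) (hwM : w ∉ M) (hm : m ∈ M) (hmT : m ∉ T) :
    ∃ t ∈ T, ∃ d ∈ M, w * d * w ∈ M ∧ m = t * d * t⁻¹ := by
  classical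
  let D : Set Γ := {d | d ∈ M ∧ w * d * w ∈ M}
  have hmul : ∀ a ∈ D, ∀ b ∈ D, a⁻¹ * b ∈ D := fun a ha b hb => ⟨M.mul_mem (M.inv_mem ha.1) hb.1, by
    have := M.mul_mem (M.inv_mem ha.2) hb.2
    rwa [mul_inv_rev, mul_inv_rev, inv_self hw, show w * (a⁻¹ * w) * (w * b * w) =
      w * a⁻¹ * (w * w) * b * w by group, hw, mul_one, mul_assoc w] at this⟩
  have h1D : (1 : Γ) ∈ D := ⟨M.one_mem, by simp [hw]⟩
  have c1 : Nat.card M = Nat.card T * Nat.card D := by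
    rw [← Nat.card_prod]
    refine (Nat.card_congr (Equiv.ofBijective
      (fun p : T × D => (⟨p.2 * p.1, M.mul_mem p.2.2.1 (H.TM p.1.2)⟩ : M)) ⟨?_, ?_⟩)).symm
    · rintro ⟨⟨t, ht⟩, ⟨d, hd⟩⟩ ⟨⟨t', ht'⟩, ⟨d', hd'⟩⟩ h
      have h : d * t = d' * t' := congrArg Subtype.val h
      have e : d'⁻¹ * d = t' * t⁻¹ := by
        rw [inv_mul_eq_iff_eq_mul, ← mul_assoc, ← h]; group
      have h2 := H.se.four hw hwM (hmul _ hd' _ hd).1 (hmul _ hd' _ hd).2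
        (H.four (e ▸ T.mul_mem ht' (T.inv_mem ht)))
      obtain rfl := inv_mul_eq_one.1 h2
      obtain rfl := mul_left_cancel h
      rfl
    · rintro ⟨m, hm⟩
      obtain ⟨t, ht, d, hd, hd', rfl⟩ := H.decomp hw hwM hm
      exact ⟨(⟨t, ht⟩, ⟨d, hd, hd'⟩), rfl⟩
  let f : T × (D \ {1} : Set Γ) → ((M : Set Γ) \ T : Set Γ) := fun p =>
    ⟨p.1 * p.2 * p.1⁻¹, M.mul_mem (M.mul_mem (H.TM p.1.2) p.2.2.1.1) (M.inv_mem (H.TM p.1.2)),
      fun h => p.2.2.2 (H.se.four hw hwM p.2.2.1.1 p.2.2.1.2 (by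
        simpa using H.four h))⟩
  have hf : Function.Injective f := by
    rintro ⟨⟨t, ht⟩, ⟨d, hd, hd1⟩⟩ ⟨⟨t', ht'⟩, ⟨d', hd', hd1'⟩⟩ h
    have h : t * d * t⁻¹ = t' * d' * t'⁻¹ := congrArg Subtype.val h
    have hτ : t'⁻¹ * t ∈ T := T.mul_mem (T.inv_mem ht') ht
    set τ := t'⁻¹ * t with hτ'
    have e : d' = τ * d * τ⁻¹ := by
      rw [hτ']
      calc d' = t'⁻¹ * (t' * d' * t'⁻¹) * t' := by group
        _ = _ := by rw [← h]; group
    have h2 := H.uniq (w' := τ * w * τ⁻¹) hw hwM (by rw [conj_mul, hw]; simp)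
      (conj_not_mem (H.TM hτ) hwM) hd'.1 hd'.2 (by
        rw [e, conj_mul, conj_mul]
        exact M.mul_mem (M.mul_mem (H.TM hτ) hd.2) (M.inv_mem (H.TM hτ))) hd1'
    have h3 : τ = 1 := H.se.four hw hwM (H.TM hτ) (by
      simpa [mul_assoc] using M.mul_mem h2 (H.TM hτ)) (H.four hτ)
    obtain rfl := inv_mul_eq_one.1 h3
    rw [h3] at e
    simp only [one_mul, inv_one, mul_one] at e
    subst e
    rfl
  have c2 : Nat.card ((M : Set Γ) \ T : Set Γ) ≤ Nat.card (T × (D \ {1} : Set Γ)) := by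
    rw [Nat.card_prod, Nat.card_coe_set_eq, Nat.card_coe_set_eq, Set.ncard_sdiff H.TM,
      Set.ncard_sdiff_singleton_of_mem h1D, Nat.mul_sub_one, ← Nat.card_coe_set_eq D, ← c1]
    rfl
  obtain ⟨⟨t, d⟩, h⟩ := (hf.bijective_of_nat_card_le c2).2 ⟨m, hm, hmT⟩
  exact ⟨t, t.2, d, d.2.1.1, d.2.1.2, (congrArg Subtype.val h).symm⟩

theorem normal {w m t : Γ} (hw : w * w = 1) (hwM : w ∉ M) (hm : m ∈ M) (ht : t ∈ T) :
    m * t * m⁻¹ ∈ T := by
  by_contra h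
  obtain ⟨t', -, d, hd, hd', e⟩ :=
    H.cover hw hwM (M.mul_mem (M.mul_mem hm (H.TM ht)) (M.inv_mem hm)) h
  have h4 := congrArg (· ^ 4) e
  simp only [conj_pow, H.four ht] at h4
  have : d = 1 := H.se.four hw hwM hd hd' (by simpa using h4.symm)
  exact h (by rw [e, this]; simp)

theorem bruhat {w g : Γ} (hw : w * w = 1) (hwM : w ∉ M) (hg : g ∉ M) :
    ∃ t ∈ T, ∃ m ∈ M, g = t * w * m := by
  obtain ⟨v, hv, hvM⟩ := H.se.exists_inv (H.EM H.zE) (H.sqE z H.zE) H.z1 hg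
  have hvM' : v ∉ M := fun h => hg (by simpa using M.inv_mem (M.mul_mem hvM (M.inv_mem h)))
  obtain ⟨e, he, he1, hez⟩ := H.big
  obtain ⟨k, hk, hk', h1⟩ := H.trans hv hvM' H.zE H.z1 he he1
  have hk1 : k ≠ 1 := by rintro rfl; exact hez (by simpa using h1.symm)
  obtain ⟨t, ht, d, hd, hd', e⟩ := H.cover hw hwM hk
    (fun h => hk1 (H.se.four hv hvM' hk hk' (H.four h)))
  have h2 := H.uniq (w := t * w * t⁻¹) (by rw [conj_mul, hw]; simp)
      (conj_not_mem (H.TM ht) hwM) hv hvM' hk (by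
        rw [e, conj_mul, conj_mul]
        exact M.mul_mem (M.mul_mem (H.TM ht) hd') (M.inv_mem (H.TM ht))) hk' hk1
  refine ⟨t, ht, t⁻¹ * (t * w * t⁻¹ * v) * (g⁻¹ * v)⁻¹,
    M.mul_mem (M.mul_mem (M.inv_mem (H.TM ht)) h2) (M.inv_mem hvM), ?_⟩
  calc g = t * (w * w) * t⁻¹ * g := by rw [hw]; group
    _ = _ := by group

end ZH

end Cfsg.Agent.H9.S4
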