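import Cfsg.Agent.H9.S4.E6
import Cfsg.Prelude.Def_GeometricClasses

/-! Bridge from `spGL 2 F` to the model of `Sp₄`. -/

set_option autoImplicit false
set_option linter.unusedSectionVars false
open Matrix Cfsg.Lie Cfsg.Agent.H4.Suz Cfsg.Agent.H8.M3 Cfsg.Geo

namespace Cfsg.Agent.H9.S4

variable {F : Type*} [Field F] [CharP F 2]

/-- the index bijection -/
def ε : Fin 4 ≃ Fin 2 ⊕ Fin 2 where
  toFun := ![.inl 0, .inl 1, .inr 1, .inr 0]
  invFun := Sum.elim ![0, 1] ![3, 2]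
  left_inv := by decide
  right_inv := by decide

theorem symp_eq (u v : Fin 2 ⊕ Fin 2 → F) : sympForm 2 F u v = B (u ∘ ε) (v ∘ ε) := by
  simp [Sp.sympForm_eq, B_apply, ε, CharTwo.sub_eq_add]; ring

theorem sub_mul (A : Matrix (Fin 2 ⊕ Fin 2) (Fin 2 ⊕ Fin 2) F) (v : Fin 2 ⊕ Fin 2 → F) :
    A.submatrix ε ε *ᵥ (v ∘ ε) = (A *ᵥ v) ∘ ε := by
  rw [Matrix.submatrix_mulVec_equiv, Function.comp_assoc]; simp

theorem comp_surj (w : V F) : ∃ v : Fin 2 ⊕ Fin 2 → F, w = v ∘ ε :=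
  ⟨w ∘ ε.symm, by simp [Function.comp_assoc]⟩

/-- the reindexing homomorphism -/
def br : spGL 2 F →* G F where
  toFun g := ofB ((g.1 : Matrix _ _ F).submatrix ε ε) fun a b => by
    have h := g.2 (e a ∘ ε.symm) (e b ∘ ε.symm)
    rw [symp_eq, symp_eq, ← sub_mul, ← sub_mul] at h
    simp only [Function.comp_assoc, Equiv.symm_comp_self, Function.comp_id] at h
    simp only [e, mulVec_single_one, B_apply] at h
    refine Eq.trans h ?_
    fin_cases a <;> fin_cases b <;> simp [nM]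
  map_one' := G.ext (by simp [ofB, G.one_m])
  map_mul' a b := G.ext (by simp [ofB, G.mul_m])

theorem br_m (g : spGL 2 F) : (br g).m = (g.1 : Matrix _ _ F).submatrix ε ε := rfl

theorem br_smul (g : spGL 2 F) (v : Fin 2 ⊕ Fin 2 → F) :
    br g • (v ∘ ε : V F) = ((g.1 : Matrix _ _ F) *ᵥ v) ∘ ε := sub_mul _ _

theorem br_inj : Function.Injective (br : spGL 2 F →* G F) := fun a b h => by
  have := congrArg (fun g : G F => g.m.submatrix ε.symm ε.symm) h
  simp only [br_m, submatrix_submatrix, Equiv.self_comp_symm, submatrix_id_id] at this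
  exact Subtype.ext (Units.ext this)

/-- the inverse reindexing -/
def rb (g : G F) : GL (Fin 2 ⊕ Fin 2) F :=
  ⟨g.m.submatrix ε.symm ε.symm, g⁻¹.m.submatrix ε.symm ε.symm,
    by rw [submatrix_mul_equiv, ← G.mul_m, mul_inv_cancel, G.one_m, submatrix_one_equiv],
    by rw [submatrix_mul_equiv, ← G.mul_m, inv_mul_cancel, G.one_m, submatrix_one_equiv]⟩

theorem main [Finite F] (big : ∃ c : F, c ≠ 0 ∧ c ≠ 1) {H P : Subgroup (GL (Fin 2 ⊕ Fin 2) F)}
    (hH : H < spGL 2 F) (hP : IsResidualCore H P)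
    (hQ : ¬ ∃ Q, IsNondegenerateQuadraticForm Q ∧ FixesQuadForm (matrixSet P) Q) :
    ∃ φ : F →+* F, Nonempty (Model (P ⧸ (scalars _ F).subgroupOf P) φ) := by
  have hle : P ≤ spGL 2 F := hP.le.trans hH.le
  have hbot : (scalars _ F).subgroupOf P = ⊥ := by
    rw [eq_bot_iff]
    intro g hg
    obtain ⟨c, hc⟩ := (mem_scalars_iff g.1).1 hg
    have h := hle g.2 (e 0 ∘ ε.symm) (e 3 ∘ ε.symm)
    change sympForm 2 F (g.1.1 *ᵥ _) (g.1.1 *ᵥ _) = _ at h
    have h1 : (c : F) = 1 := frobenius_inj F 2 (by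
      simpa [hc, symp_eq, smul_mulVec, B_apply, e_apply, frobenius_def, sq] using h)
    exact Subtype.ext (Units.ext (by rw [hc, h1]; simp))
  let i : (P ⧸ (scalars _ F).subgroupOf P) ≃* P :=
    (QuotientGroup.quotientMulEquivOfEq hbot).trans QuotientGroup.quotientBot
  let α : (P ⧸ (scalars _ F).subgroupOf P) →* G F :=
    (br.comp (Subgroup.inclusion hle)).comp i.toMonoidHom
  have hα : ∀ γ, (α γ).m = ((i γ).1 : Matrix _ _ F).submatrix ε ε := fun _ => rfl
  have hα' : ∀ s ∈ matrixSet P, ∃ γ, (α γ).m = s.submatrix ε ε := by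
    rintro _ ⟨g, hg, rfl⟩
    exact ⟨i.symm ⟨g, hg⟩, by rw [hα]; simp⟩
  have sn : SN (P ⧸ (scalars _ F).subgroupOf P) :=
    ⟨hP.simple, fun h => hP.nonabelian ⟨⟨h⟩⟩⟩
  refine Good.model (α := α) ⟨sn, (br_inj.comp (Subgroup.inclusion_injective hle)).comp
    i.injective, fun W hW => ?_, fun Q h1 h2 => hQ ⟨fun v => Q (v ∘ ε), ?_, fun s hs v => ?_⟩,
    fun Q h1 h2 => ?_, fun g k h => ?_, fun h => hH.not_ge fun g hg => ?_, big⟩
  · rcases hP.absIrred.1 (W.comap (LinearMap.funLeft F F ε)) (by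
      rintro _ ⟨g, hg, rfl⟩ _ ⟨v, hv, rfl⟩
      have := hW (i.symm ⟨g, hg⟩) _ hv
      change (α _).m *ᵥ (v ∘ ε) ∈ W at this
      rw [hα, sub_mul, MulEquiv.apply_symm_apply] at this
      exact this) with h | h
    · refine Or.inl (eq_bot_iff.2 fun w hw => ?_)
      obtain ⟨v, rfl⟩ := comp_surj w
      obtain rfl : v = 0 := (Submodule.eq_bot_iff _).1 h v hw
      rfl
    · refine Or.inr (eq_top_iff.2 fun w _ => ?_)
      obtain ⟨v, rfl⟩ := comp_surj w
      exact (show v ∈ W.comap (LinearMap.funLeft F F ε) from h ▸ trivial)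
  · have hp : QuadraticMap.polar (fun v : Fin 2 ⊕ Fin 2 → F => Q (v ∘ ε)) =
        fun u v => Sp.B0 2 F u v := by
      ext u v
      simp only [QuadraticMap.polar]
      rw [show (u + v) ∘ ε = u ∘ ε + v ∘ ε from rfl, h1.add, Sp.B0_apply, symp_eq]; ring
    refine ⟨fun c v => h1.smul c _, ?_, fun v hv => ?_⟩
    · rw [hp]; constructor <;> intros <;> simp
    · rw [hp]
      obtain ⟨x, hx⟩ := exists_B (z := v ∘ ε) fun h => hv (by
        ext j; simpa using congrFun h (ε.symm j))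
      obtain ⟨x, rfl⟩ := comp_surj x
      exact ⟨⟨x, by simp [Sp.B0_apply, symp_eq, hx]⟩,
        ⟨x, by simp [Sp.B0_apply, symp_eq, B_comm (v ∘ ε), hx]⟩⟩
  · obtain ⟨γ, h⟩ := hα' s hs
    beta_reduce
    rw [← sub_mul, ← h]
    exact h2 γ _
  · obtain ⟨J, j0, j1, hJ⟩ := comm_of_Qs sn h1 h2
    obtain ⟨c, hc⟩ := hP.absIrred.2 (J.submatrix ε.symm ε.symm) fun s hs => by
      obtain ⟨γ, h⟩ := hα' s hs
      have := congrArg (fun A => A.submatrix ε.symm ε.symm) (hJ γ)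
      simpa [h, ← submatrix_mul_equiv _ _ _ ε.symm] using this
    have a0 := congrFun (congrFun hc (ε 0)) (ε 0)
    have a1 := congrFun (congrFun hc (ε 1)) (ε 1)
    simp [j0, j1] at a0 a1
    exact one_ne_zero (a0.trans a1.symm)
  · by_contra hk
    refine hP.no_subfield k hk ⟨rb g, fun s hs a b => ?_⟩
    obtain ⟨γ, h1⟩ := hα' s hs
    have := h γ (ε.symm a) (ε.symm b)
    rw [G.mul_m, G.mul_m, h1] at this
    convert this using 1
    change ((g.m.submatrix ε.symm ε.symm) * s * (g⁻¹.m.submatrix ε.symm ε.symm)) a b =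
      (g.m * s.submatrix ε ε * g⁻¹.m).submatrix ε.symm ε.symm a b
    rw [← submatrix_mul_equiv _ _ _ ε.symm, ← submatrix_mul_equiv _ _ _ ε.symm]
    simp
  · obtain ⟨γ, h1⟩ := h (br ⟨g, hg⟩)
    exact hP.le (by rw [← show _ = g from congrArg Subtype.val (br_inj h1)]; exact (i γ).2)

end Cfsg.Agent.H9.S4
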