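import Cfsg.Agent.H9.S4.A3
import Cfsg.Agent.H9.S4.B

/-! Representations of simple groups in `Sp₄(2^n)`: the standing hypotheses and their duality. -/

set_option autoImplicit false
set_option linter.unusedSectionVars false
open Matrix Cfsg.Lie Cfsg.Agent.H4.Suz Cfsg.Agent.H8.M3

namespace Cfsg.Agent.H9.S4

variable {F : Type*} [Field F] [CharP F 2] [Finite F] {Γ : Type*} [Group Γ] [Finite Γ]

/-- quadratic forms polarising to `B` -/
structure IsQ (Q : V F → F) : Prop where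
  smul : ∀ (c : F) v, Q (c • v) = c ^ 2 * Q v
  add : ∀ u v, Q (u + v) = Q u + Q v + B u v

/-- the standard form -/
def Q0 (v : V F) : F := v 0 * v 3 + v 1 * v 2

theorem isQ0 : IsQ (Q0 : V F → F) :=
  ⟨fun c v => by simp [Q0]; ring, fun u v => by simp [Q0, B_apply]; ring⟩

theorem IsQ.eq {Q : V F → F} (h : IsQ Q) (v : V F) : Q v = v 0 * v 3 + v 1 * v 2 +
    v 0 ^ 2 * Q (e 0) + v 1 ^ 2 * Q (e 1) + v 2 ^ 2 * Q (e 2) + v 3 ^ 2 * Q (e 3) := by
  have : v = v 0 • e 0 + v 1 • e 1 + v 2 • e 2 + v 3 • e 3 := by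
    apply vext <;> simp [e_apply]
  nth_rewrite 1 [this]
  simp only [h.add, h.smul]
  simp [B_apply, e_apply]
  ring

theorem avg {T : Subgroup Γ} (hT : Odd T.index) (β : Γ →* G F) {Q : V F → F} (hQ : IsQ Q)
    (h : ∀ γ ∈ T, ∀ v, Q (β γ • v) = Q v) :
    ∃ Q' : V F → F, IsQ Q' ∧ ∀ γ v, Q' (β γ • v) = Q' v := by
  classical
  have := Fintype.ofFinite (Γ ⧸ T)
  let f : V F → Γ ⧸ T → F := fun v => Quotient.lift (fun g => Q (β g⁻¹ • v)) fun a b hab => by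
    have := h _ (QuotientGroup.leftRel_apply.1 hab) (β b⁻¹ • v)
    rw [← mul_smul, ← map_mul] at this
    simpa using this
  have hf : ∀ v (g : Γ), f v (g : Γ ⧸ T) = Q (β g⁻¹ • v) := fun _ _ => rfl
  refine ⟨fun v => ∑ q, f v q, ⟨fun c v => ?_, fun u v => ?_⟩, fun γ v => ?_⟩
  · rw [Finset.mul_sum]
    refine Finset.sum_congr rfl fun q _ => ?_
    induction q using QuotientGroup.induction_on with | H g => ?_
    rw [hf, hf, smul_smul', hQ.smul]
  · have h1 : ∀ q, f (u + v) q = f u q + f v q + B u v := fun q => by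
      induction q using QuotientGroup.induction_on with | H g => ?_
      rw [hf, hf, hf, smul_add, hQ.add, B_smul]
    simp only [h1, Finset.sum_add_distrib, Finset.sum_const, Finset.card_univ, nsmul_eq_mul]
    rw [← Nat.card_eq_fintype_card, ← Subgroup.index_eq_card]
    obtain ⟨k, hk⟩ := hT
    rw [hk]
    push_cast
    rw [two, zero_mul, zero_add, one_mul]
  · refine Fintype.sum_equiv (MulAction.toPerm γ⁻¹) _ _ fun q => ?_
    induction q using QuotientGroup.induction_on with | H g => ?_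
    rw [MulAction.toPerm_apply, MulAction.Quotient.smul_coe, hf, hf, ← mul_smul, ← map_mul]
    simp

theorem fr_Q {β : Γ → G F} {Q : V F → F} (hQ : IsQ Q) (h : ∀ γ v, Q (fr (β γ) • v) = Q v) :
    ∃ Q' : V F → F, IsQ Q' ∧ ∀ γ v, Q' (β γ • v) = Q' v := by
  let σ := frobeniusEquiv F 2
  have hσ : ∀ x, σ x = x ^ 2 := fun _ => rfl
  refine ⟨fun v => σ.symm (Q fun i => σ (v i)), ⟨fun c v => ?_, fun u v => ?_⟩, fun γ v => ?_⟩
  · apply σ.injective
    rw [show (fun i => σ ((c • v) i)) = σ c • fun i => σ (v i) by ext i; simp, hQ.smul]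
    simp
  · apply σ.injective
    rw [show (fun i => σ ((u + v) i)) = (fun i => σ (u i)) + fun i => σ (v i) by ext i; simp,
      hQ.add]
    simp [B_apply]
  · dsimp only
    rw [← h γ fun i => σ (v i)]
    congr 2
    ext i
    simp [sm, fr_apply, ← hσ]

/-- conjugate representation -/
def cj (g : G F) (α : Γ →* G F) : Γ →* G F := (MulAut.conj g).toMonoidHom.comp α

theorem cj_apply (g : G F) (α : Γ →* G F) (γ : Γ) : cj g α γ = g * α γ * g⁻¹ := rfl

/-- irreducibility -/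
def Irr (α : Γ →* G F) : Prop :=
  ∀ W : Submodule F (V F), (∀ γ, ∀ w ∈ W, α γ • w ∈ W) → W = ⊥ ∨ W = ⊤

theorem Irr.cj {α : Γ →* G F} (h : Irr α) (g : G F) : Irr (cj g α) := by
  intro W hW
  rcases h (W.comap (toL g).toLinearMap) (fun γ w hw => by
    have := hW γ _ hw
    change _ • g • w ∈ W at this
    change g • _ ∈ W
    simpa [cj_apply, mul_smul] using this) with e | e
  · left
    rw [eq_bot_iff]
    intro w hw
    have : g⁻¹ • w ∈ W.comap (toL g).toLinearMap := by change g • _ ∈ W; simpa using hw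
    simpa [e, smul_eq_zero_iff_eq] using this
  · right
    rw [eq_top_iff]
    intro w _
    have : g⁻¹ • w ∈ W.comap (toL g).toLinearMap := e ▸ trivial
    change g • _ ∈ W at this
    simpa using this

theorem Irr.perp {α : Γ →* G F} (h : Irr α) {v y : V F} (hv : v ≠ 0) (hy : y ≠ 0) :
    ∃ γ, B (α γ • v) y ≠ 0 := by
  by_contra! h1
  let W : Submodule F (V F) :=
    { carrier := {w | ∀ γ, B (α γ • w) y = 0}
      add_mem' := fun ha hb γ => by simp [ha γ, hb γ]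
      zero_mem' := fun γ => by simp
      smul_mem' := fun c w hw γ => by simp [smul_smul', hw γ] }
  rcases h W (fun γ w hw δ => by rw [← mul_smul, ← map_mul]; exact hw _) with e | e
  · exact hv ((Submodule.mem_bot F).1 (e ▸ h1))
  · exact hy (B_nd fun x => by simpa using (show x ∈ W from e ▸ trivial) 1)

theorem Irr.not_Pp {α : Γ →* G F} (h : Irr α) : ∃ γ, α γ ∉ Pp := by
  by_contra! h1
  obtain ⟨γ, h2⟩ := h.perp (e_ne 0) (e_ne 0)
  exact h2 (by simp [Pp_smul (h1 γ)])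

theorem Irr.not_Pl {α : Γ →* G F} (h : Irr α) : ∃ γ, α γ ∉ Pl := by
  by_contra! h1
  obtain ⟨γ, h2⟩ := h.perp (e_ne 0) (e_ne 1)
  exact h2 (by rw [B_e, smul_e]; exact (h1 γ).1)

theorem red_cases {β : Γ →* G F} (h : ¬ Irr β) : ∃ g, (∀ γ, cj g β γ ∈ Pp) ∨ (∀ γ, cj g β γ ∈ Pl) ∨
    ∀ γ (v : V F), Q0 (st (cj g β γ) • v) = Q0 v := by
  simp only [Irr, not_forall, not_or] at h
  obtain ⟨W, hW, h0, h1⟩ := h
  have hP : ∀ γ, ∀ w ∈ Sp.perp B W, β γ • w ∈ Sp.perp B W := fun γ w hw k hk => by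
    rw [B_right, ← map_inv]; exact hw _ (hW _ _ hk)
  have coord : ∀ (g : G F) γ (i j : Fin 4), (cj g⁻¹ β γ).m i j =
      B (β γ • g • (e j : V F)) (g • e i.rev) :=
    fun g γ i j => by
      rw [B_right, B_e, Fin.rev_rev, ← smul_e, cj_apply, inv_inv, mul_smul, mul_smul]
  by_cases hR : ∃ a ∈ W, a ≠ 0 ∧ a ∈ Sp.perp B W
  · obtain ⟨a, ha, ha0, ha'⟩ := hR
    by_cases hb : ∃ b ∈ W, b ∈ Sp.perp B W ∧ ∀ c : F, b ≠ c • a
    · obtain ⟨b, hb, hb', hc⟩ := hb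
      obtain ⟨g, g0, g1⟩ := witt_b ha0 hc (hb' a ha)
      refine ⟨g⁻¹, Or.inr (Or.inl fun γ => ⟨?_, ?_, ?_, ?_⟩)⟩ <;> rw [coord]
      · exact g0 ▸ g1 ▸ hb' _ (hW _ _ ha)
      · exact g0 ▸ ha' _ (hW _ _ ha)
      · exact g1 ▸ hb' _ (hW _ _ hb)
      · exact g0 ▸ g1 ▸ ha' _ (hW _ _ hb)
    · push Not at hb
      obtain ⟨g, g0⟩ := witt_a ha0
      refine ⟨g⁻¹, Or.inl fun γ => ?_⟩
      obtain ⟨c, hc⟩ := hb _ (hW γ a ha) (hP γ a ha')
      refine mem_Pp_of (c := c) ?_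
      rw [cj_apply, inv_inv, mul_smul, mul_smul, g0, hc, ← g0, smul_smul', inv_smul_smul]
  · push Not at hR
    obtain ⟨a, ha, ha0⟩ := Submodule.exists_mem_ne_zero_of_ne_bot h0
    obtain ⟨d, hd, had⟩ : ∃ d ∈ W, B a d = 1 := by
      have := hR a ha ha0
      simp only [Sp.mem_perp, not_forall] at this
      obtain ⟨d, hd, h⟩ := this
      exact ⟨(B d a)⁻¹ • d, W.smul_mem _ hd, by simp [B_comm a d, h]⟩
    obtain ⟨x, hx⟩ : ∃ x, x ∉ W := by
      by_contra! h; exact h1 (eq_top_iff.2 fun x _ => h x)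
    obtain ⟨b, hb, hxb⟩ := (symp (F := F)).exists_perp hx
    obtain ⟨c, hc, hbc⟩ := (symp (F := F)).exists_perp (K := W) (x := b)
      (fun h => hR b h (by rintro rfl; simp at hxb) hb)
    obtain ⟨g, g0, g1, g2, g3⟩ := exists_cols (hb a ha) (hc a ha) had hbc
      (by rw [B_comm]; exact hb d hd) (by rw [B_comm]; exact hc d hd)
    refine ⟨g⁻¹, Or.inr (Or.inr fun γ v => ?_)⟩
    have e1 : (cj g⁻¹ β γ).m 1 0 = 0 := by rw [coord]; exact g0 ▸ g2 ▸ hc _ (hW _ _ ha)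
    have e2 : (cj g⁻¹ β γ).m 2 0 = 0 := by rw [coord]; exact g0 ▸ g1 ▸ hb _ (hW _ _ ha)
    have e3 : (cj g⁻¹ β γ).m 1 3 = 0 := by rw [coord]; exact g3 ▸ g2 ▸ hc _ (hW _ _ hd)
    have e4 : (cj g⁻¹ β γ).m 2 3 = 0 := by rw [coord]; exact g3 ▸ g1 ▸ hb _ (hW _ _ hd)
    have e5 : (cj g⁻¹ β γ).m 0 1 = 0 := by
      rw [coord, B_comm]; exact g3 ▸ g1 ▸ hP _ _ hb _ hd
    have e6 : (cj g⁻¹ β γ).m 0 2 = 0 := by
      rw [coord, B_comm]; exact g3 ▸ g2 ▸ hP _ _ hc _ hd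
    have e7 : (cj g⁻¹ β γ).m 3 1 = 0 := by
      rw [coord, B_comm]; exact g0 ▸ g1 ▸ hP _ _ hb _ ha
    have e8 : (cj g⁻¹ β γ).m 3 2 = 0 := by
      rw [coord, B_comm]; exact g0 ▸ g2 ▸ hP _ _ hc _ ha
    generalize cj g⁻¹ β γ = A at *
    have o1 : _ = (1 : F) := A.orth 0 3
    have o2 : _ = (1 : F) := A.orth 1 2
    simp [Q0, sm, st_apply, pairOf, e1, e2, e3, e4, e5, e6, e7, e8] at o1 o2 ⊢
    grind

/-- the standing hypotheses -/
structure Good (α : Γ →* G F) : Prop where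
  sn : SN Γ
  inj : Function.Injective α
  irr : Irr α
  noQ : ∀ Q : V F → F, IsQ Q → ¬ ∀ γ v, Q (α γ • v) = Q v
  noQs : ∀ Q : V F → F, IsQ Q → ¬ ∀ γ v, Q (st (α γ) • v) = Q v
  noSub : ∀ (g : G F) (k : Subfield F), (∀ γ i j, (g * α γ * g⁻¹).m i j ∈ k) → k = ⊤
  nsurj : ¬ Function.Surjective α
  big : ∃ c : F, c ≠ 0 ∧ c ≠ 1

theorem IsQ.comp {Q : V F → F} (h : IsQ Q) (g : G F) : IsQ fun v => Q (g • v) :=
  ⟨fun c v => by rw [smul_smul', h.smul], fun u v => by rw [smul_add, h.add, B_smul]⟩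

theorem Good.cj {α : Γ →* G F} (h : Good α) (g : G F) : Good (cj g α) where
  sn := h.sn
  inj := (MulAut.conj g).injective.comp h.inj
  irr := h.irr.cj g
  noQ Q hQ h1 := h.noQ _ (hQ.comp g) fun γ v => by
    simpa [cj_apply, mul_smul] using h1 γ (g • v)
  noQs Q hQ h1 := h.noQs _ (hQ.comp (st g)) fun γ v => by
    simpa [cj_apply, mul_smul] using h1 γ (st g • v)
  noSub g' k h1 := h.noSub (g' * g) k fun γ i j => by
    simpa [cj_apply, mul_assoc] using h1 γ i j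
  nsurj h1 := h.nsurj fun x => by
    obtain ⟨γ, e⟩ := h1 (g * x * g⁻¹)
    exact ⟨γ, (MulAut.conj g).injective e⟩
  big := h.big

theorem mem_of_sq {k : Subfield F} {x : F} (h : x ^ 2 ∈ k) : x ∈ k := by
  obtain ⟨y, hy⟩ := exists_sq (⟨_, h⟩ : k)
  have : (y : F) ^ 2 = x ^ 2 := congrArg Subtype.val hy
  have : (y : F) = x := frobenius_inj F 2 this
  exact this ▸ y.2

theorem st_mem {k : Subfield F} {A : G F} (h : ∀ i j, A.m i j ∈ k) (i j : Fin 4) :
    (st A).m i j ∈ k := by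
  rw [st_apply]
  exact k.sub_mem (k.mul_mem (h _ _) (h _ _)) (k.mul_mem (h _ _) (h _ _))

theorem Good.st {α : Γ →* G F} (h : Good α) : Good (st.comp α) where
  sn := h.sn
  inj := st_inj.comp h.inj
  irr := by
    by_contra h1
    obtain ⟨g, h2⟩ := red_cases h1
    obtain ⟨g, rfl⟩ := st_surj g
    have e : ∀ γ, S4.cj (S4.st g) (S4.st.comp α) γ = S4.st (S4.cj g α γ) := fun γ => by
      simp [cj_apply]
    simp only [e, st_mem_Pp, st_mem_Pl, st_st] at h2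
    rcases h2 with h2 | h2 | h2
    · obtain ⟨γ, h3⟩ := (h.cj g).irr.not_Pl; exact h3 (h2 γ)
    · obtain ⟨γ, h3⟩ := (h.cj g).irr.not_Pp; exact h3 (h2 γ)
    · obtain ⟨Q, hQ, h3⟩ := fr_Q isQ0 h2
      exact (h.cj g).noQ Q hQ h3
  noQ := h.noQs
  noQs Q hQ h1 := by
    simp only [MonoidHom.comp_apply, st_st] at h1
    obtain ⟨Q, hQ, h3⟩ := fr_Q hQ h1
    exact h.noQ Q hQ h3
  noSub g k h1 := by
    obtain ⟨g, rfl⟩ := st_surj g
    refine h.noSub g k fun γ i j => mem_of_sq ?_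
    rw [← fr_apply, ← st_st]
    refine st_mem (fun i j => ?_) i j
    simpa using h1 γ i j
  nsurj h1 := h.nsurj fun x => by
    obtain ⟨γ, e⟩ := h1 (S4.st x)
    exact ⟨γ, st_inj e⟩
  big := h.big

theorem Good.gen {α : Γ →* G F} (h : Good α) {z : Γ} (hz : z ≠ 1) {H : Subgroup Γ}
    (hH : ∀ g, g * z * g⁻¹ ∈ H) : H = ⊤ := by
  rcases h.sn.normal_cases H.normalCore inferInstance with e | e
  · exact absurd (Subgroup.mem_bot.1 (e ▸ hH)) hz
  · exact eq_top_iff.2 (e ▸ H.normalCore_le)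

end Cfsg.Agent.H9.S4
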