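import Cfsg.Agent.H9.S4.C

/-! Simple subgroups of `Sp₄(2^n)` containing transvections, part 1. -/

set_option autoImplicit false
set_option linter.unusedSectionVars false
open Matrix Cfsg.Lie Cfsg.Agent.H4.Suz Cfsg.Agent.H8.M3

namespace Cfsg.Agent.H9.S4

variable {F : Type*} [Field F] [CharP F 2] [Finite F] {Γ : Type*} [Group Γ] [Finite Γ]
  {α : Γ →* G F}

/-- vectors of transvections -/
def X (α : Γ →* G F) (v : V F) : Prop := ∃ γ, α γ = tv v

theorem X.zero : X α 0 := ⟨1, by rw [map_one, tv_zero]⟩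

theorem X.smul {v : V F} (h : X α v) (γ : Γ) : X α (α γ • v) := by
  obtain ⟨δ, e⟩ := h
  exact ⟨γ * δ * γ⁻¹, by rw [map_mul, map_mul, map_inv, e, tv_conj]⟩

theorem X_cj {g : G F} {v : V F} : X (cj g α) (g • v) ↔ X α v := by
  constructor
  · rintro ⟨δ, e⟩
    rw [← tv_conj] at e
    exact ⟨δ, (MulAut.conj g).injective e⟩
  · rintro ⟨δ, e⟩
    exact ⟨δ, by rw [cj_apply, e, tv_conj]⟩

theorem X_cj' {g : G F} {v : V F} : X (cj g α) v ↔ X α (g⁻¹ • v) := by
  rw [← X_cj (g := g) (α := α), smul_inv_smul]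

theorem ext_plane {a b : V F} (hab : B a b ≠ 0) {g h : G F}
    (H : ∀ w, B w a = 0 → B w b = 0 → g • w = h • w) (ha : g • a = h • a) (hb : g • b = h • b) :
    g = h := G.ext_v fun w => by
  have h1 := H (w + (B w b / B a b) • a + (B w a / B a b) • b)
    (by simp [B_comm b a, hab, CharTwo.add_self_eq_zero])
    (by simp [hab, CharTwo.add_self_eq_zero])
  simpa [smul_add, smul_smul', ha, hb] using h1

theorem tv_comm {g : G F} {v : V F} (h : g * tv v * g⁻¹ = tv v) : g • v = v :=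
  tv_inj (by rw [← tv_conj, h])

theorem X.swap (hα : Function.Injective α) {a b : V F} (ha : X α a) (hb : X α b)
    (hab : B a b ≠ 0) :
    ∃ s, (∀ w, B w a = 0 → B w b = 0 → α s • w = w) ∧ α s • a = b ∧ α s • b = a := by
  obtain ⟨i, hi⟩ := ha
  obtain ⟨j, hj⟩ := hb
  let M : Subgroup Γ :=
    { carrier := {γ | ∀ w, B w a = 0 → B w b = 0 → α γ • w = w}
      mul_mem' := fun h1 h2 w ha hb => by rw [map_mul, mul_smul, h2 w ha hb, h1 w ha hb]
      one_mem' := fun w _ _ => by simp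
      inv_mem' := fun h1 w ha hb => by rw [map_inv, inv_smul_eq_iff, h1 w ha hb] }
  rcases Sp.dihedral (M := M) (i := i) (j := j) (hα (by rw [map_mul, hi, tv_sq, map_one]))
    (hα (by rw [map_mul, hj, tv_sq, map_one])) (fun w h _ => by simp [hi, tv_smul, h])
    (fun w _ h => by simp [hj, tv_smul, h]) with ⟨s, hs, h1, h2⟩ | ⟨z, hz, h1, -, h2, h3, -⟩
  · have e : α s • a = b := tv_inj (by rw [← tv_conj, ← hi, ← hj, ← h2]; simp)
    exact ⟨s, hs, e, by rw [← e, ← mul_smul, ← map_mul, h1]; simp⟩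
  · refine absurd (hα ?_) h1
    refine ext_plane hab (fun w ha hb => by simpa using hz w ha hb) ?_ ?_
    · rw [tv_comm (by rw [← hi]; simpa using congrArg α h2)]; simp
    · rw [tv_comm (by rw [← hj]; simpa using congrArg α h3)]; simp

theorem X.swap' (hα : Function.Injective α) {a b : V F} (ha : X α a) (hb : X α b) {c : F}
    (hc : c ^ 2 * B a b = 1) : X α (c • (a + b)) := by
  have hab : B a b ≠ 0 := right_ne_zero_of_mul_eq_one hc
  obtain ⟨s, h1, h2, h3⟩ := ha.swap hα hb hab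
  refine ⟨s, ext_plane hab (fun w ha hb => by simp [tv_smul, h1 w ha hb, ha, hb]) ?_ ?_⟩
  · rw [h2, tv_smul, smul_smul, show B a (c • (a + b)) * c = 1 by rw [← hc]; simp; ring,
      one_smul, ← add_assoc, vadd_self, zero_add]
  · rw [h3, tv_smul, smul_smul, show B b (c • (a + b)) * c = 1 by
      rw [← hc, B_comm a]; simp; ring, one_smul, add_comm a, ← add_assoc, vadd_self, zero_add]

theorem X.trans (hα : Good α) {a b : V F} (ha : X α a) (hb : X α b) (ha0 : a ≠ 0) (hb0 : b ≠ 0) :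
    ∃ γ, α γ • a = b := by
  obtain ⟨γ, h⟩ := hα.irr.perp ha0 hb0
  obtain ⟨s, -, h2, -⟩ := (ha.smul γ).swap hα.inj hb h
  exact ⟨s * γ, by rw [map_mul, mul_smul, h2]⟩

theorem X.gen (hα : Good α) {a : V F} (ha : X α a) (ha0 : a ≠ 0) {H : Subgroup Γ}
    (hH : ∀ γ v, α γ = tv v → γ ∈ H) : H = ⊤ := by
  obtain ⟨i, hi⟩ := ha
  refine hα.gen (z := i) (fun h => ha0 (tv_inj (by rw [← hi, h, map_one, tv_zero]))) fun g => ?_
  exact hH _ _ (by rw [map_mul, map_mul, map_inv, hi, tv_conj])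

theorem X.exists_ne (hα : Good α) {a : V F} (ha : X α a) (ha0 : a ≠ 0) {y : V F} (hy : y ≠ 0) :
    ∃ v, X α v ∧ B v y ≠ 0 := by
  obtain ⟨γ, h⟩ := hα.irr.perp ha0 hy
  exact ⟨_, ha.smul γ, h⟩

theorem X.add_smul {v : V F} {a b : F} (ha : X α (a • v)) (hb : X α (b • v)) :
    X α ((a + b) • v) := by
  obtain ⟨i, hi⟩ := ha
  obtain ⟨j, hj⟩ := hb
  refine ⟨i * j, G.ext_v fun w => ?_⟩
  rw [map_mul, hi, hj, mul_smul]
  simp only [tv_smul, map_add, map_smul, LinearMap.add_apply,
    LinearMap.smul_apply, B_self, smul_eq_mul, smul_smul, add_assoc, ← _root_.add_smul]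
  congr 2
  grind

/-- the field of definition -/
def kf (α : Γ →* G F) : Subfield F where
  carrier := {c | ∀ v, X α v → X α (c • v)}
  mul_mem' ha hb v hv := by rw [mul_smul]; exact ha _ (hb v hv)
  one_mem' v hv := by rwa [one_smul]
  add_mem' ha hb v hv := (ha v hv).add_smul (hb v hv)
  zero_mem' v _ := by rw [zero_smul]; exact X.zero
  neg_mem' ha v hv := by rw [CharTwo.neg_eq]; exact ha v hv
  inv_mem' c hc := by
    by_cases h : c = 0
    · intro v _; rw [h, _root_.inv_zero, zero_smul]; exact X.zero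
    have hp : ∀ n : ℕ, ∀ v, X α v → X α (c ^ n • v) := fun n => by
      induction n with
      | zero => intro v hv; simpa using hv
      | succ n ih => intro v hv; rw [pow_succ, mul_smul]; exact ih _ (hc v hv)
    have hpos := orderOf_pos (Units.mk0 c h)
    have h1 : c ^ orderOf (Units.mk0 c h) = 1 :=
      congrArg Units.val (pow_orderOf_eq_one (Units.mk0 c h))
    have : c⁻¹ = c ^ (orderOf (Units.mk0 c h) - 1) := by
      rw [inv_eq_of_mul_eq_one_right]
      rw [← pow_succ', Nat.sub_add_cancel hpos, h1]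
    rw [this]; exact hp _

theorem mem_kf (hα : Good α) {a : V F} (ha : X α a) (ha0 : a ≠ 0) {c : F} (hc : X α (c • a)) :
    c ∈ kf α := fun v hv => by
  by_cases h : v = 0
  · rw [h, smul_zero]; exact X.zero
  obtain ⟨γ, rfl⟩ := ha.trans hα hv ha0 h
  rw [← smul_smul']
  exact hc.smul γ

theorem kf_top (hα : Good α) {a : V F} (ha : X α a) (ha0 : a ≠ 0)
    (h : ∀ u v, X α u → X α v → B u v ∈ kf α) : kf α = ⊤ := by
  set k := kf α
  let L : V F → Prop := fun w => ∀ v, X α v → B v w ∈ k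
  have Ladd : ∀ w w', L w → L w' → L (w + w') := fun w w' h1 h2 v hv => by
    rw [map_add]; exact k.add_mem (h1 v hv) (h2 v hv)
  have Lsm : ∀ c ∈ k, ∀ w, L w → L (c • w) := fun c hc w h1 v hv => by
    rw [map_smul]; exact k.mul_mem hc (h1 v hv)
  have LX : ∀ w, X α w → L w := fun w hw v hv => h v w hv hw
  obtain ⟨d', hd', had'⟩ := ha.exists_ne hα ha0 ha0
  have Ld : L ((B d' a)⁻¹ • d') := Lsm _ (k.inv_mem (h _ _ hd' ha)) _ (LX _ hd')
  have had : B a ((B d' a)⁻¹ • d') = 1 := by simp [B_comm a d', had']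
  generalize (B d' a)⁻¹ • d' = d at Ld had
  have hda : B d a = 1 := by rw [B_comm, had]
  obtain ⟨g0, g00, g03⟩ := witt_c had
  obtain ⟨y, hy, hy0⟩ := ha.exists_ne hα ha0 (y := g0 • e 2) (by
    simpa [smul_eq_zero_iff_eq] using e_ne (F := F) 2)
  have hb : y + B y d • a + B y a • d ≠ 0 := fun h => hy0 (by
    rw [add_assoc, vadd_eq_zero] at h
    rw [h, ← g00, ← g03]
    simp [B_smul, B_e, e_apply])
  have Lp : ∀ y, X α y → L (y + B y d • a + B y a • d) := fun y hy =>
    Ladd _ _ (Ladd _ _ (LX y hy) (Lsm _ (Ld y hy) _ (LX a ha))) (Lsm _ (h _ _ hy ha) _ Ld)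
  obtain ⟨x, hx, hx0⟩ := ha.exists_ne hα ha0 hb
  obtain ⟨g, h0, h1, h2, h3⟩ := exists_cols (a := a) (b := y + B y d • a + B y a • d)
    (c := (B x (y + B y d • a + B y a • d))⁻¹ • (x + B x d • a + B x a • d)) (d := d)
    (by simp [had, B_comm a y, CharTwo.add_self_eq_zero])
    (by simp [had, B_comm a x, CharTwo.add_self_eq_zero]) had
    (by
      rw [map_smul, smul_eq_mul, inv_mul_eq_one₀ hx0, B_comm _ (x + _ + _)]
      simp [had, hda, B_comm a y, B_comm d y, CharTwo.add_self_eq_zero])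
    (by simp [had, CharTwo.add_self_eq_zero]) (by simp [had, CharTwo.add_self_eq_zero])
  have Lg : ∀ i, L (g • e i) := by
    intro i
    fin_cases i
    · exact h0 ▸ LX a ha
    · exact h1 ▸ Lp y hy
    · exact h2 ▸ Lsm _ (k.inv_mem (Lp y hy x hx)) _ (Lp x hx)
    · exact h3 ▸ Ld
  let H : Subgroup Γ :=
    { carrier := {γ | ∀ i j, (g⁻¹ * α γ * g⁻¹⁻¹).m i j ∈ k}
      mul_mem' := fun {a b} h1 h2 i j => by
        rw [map_mul, ← conj_mul, G.mul_apply]
        exact k.add_mem (k.add_mem (k.add_mem (k.mul_mem (h1 _ _) (h2 _ _))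
          (k.mul_mem (h1 _ _) (h2 _ _))) (k.mul_mem (h1 _ _) (h2 _ _))) (k.mul_mem (h1 _ _) (h2 _ _))
      one_mem' := fun i j => by
        simp only [map_one, mul_one, mul_inv_cancel, G.one_m, Matrix.one_apply]
        split_ifs
        exacts [k.one_mem, k.zero_mem]
      inv_mem' := fun {a} h1 i j => by
        rw [map_inv, ← conj_inv, G.inv_apply]; exact h1 _ _ }
  have hH : H = ⊤ := ha.gen hα ha0 fun γ v hv i j => by
    have h5 : ∀ i, (g⁻¹ • v) i ∈ k := fun i => by
      rw [← Fin.rev_rev i, ← B_e (g⁻¹ • v), ← B_right]; exact Lg _ v ⟨γ, hv⟩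
    rw [hv, tv_conj, tv_m, Matrix.one_apply]
    refine k.add_mem ?_ (k.mul_mem (h5 _) (h5 _))
    split_ifs
    exacts [k.one_mem, k.zero_mem]
  exact hα.noSub g⁻¹ k fun γ => (show γ ∈ H from hH ▸ trivial)

theorem kf_ne_top (hα : Good α) {a : V F} (ha : X α a) (ha0 : a ≠ 0) : kf α ≠ ⊤ := by
  intro hk
  have hf : ∀ v, X α v → Sp.Full B (α.range.map toL) v := fun v hv =>
    full_of fun c => (show c ∈ kf α from hk ▸ trivial) v hv
  have hM : α.range.map toL ≤ Sp.Sp B := by
    rintro _ ⟨g, -, rfl⟩ u v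
    exact B_smul g u v
  have := eq_top_of_full (H := α.range) (Sp.full_of_conn symp hM hα.big {v | X α v} hf ?_
    (hf a ha) ?_)
  · exact hα.nsurj (MonoidHom.range_eq_top.1 this)
  · rcases hα.irr (Submodule.span F {v | X α v}) (fun γ w hw => by
      induction hw using Submodule.span_induction with
      | mem x hx => exact Submodule.subset_span (hx.smul γ)
      | zero => simp
      | add x y _ _ hx hy => rw [smul_add]; exact add_mem hx hy
      | smul c x _ hx => rw [smul_smul']; exact Submodule.smul_mem _ c hx) with e | e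
    · exact absurd ((Submodule.mem_bot F).1 (e ▸ Submodule.subset_span ha)) ha0
    · exact e
  · intro p hp hp0
    by_contra! hc
    let A : Set (V F) := {w | Sp.Full B (α.range.map toL) w ∧ B w a ≠ 0}
    have key : ∀ γ v, α γ = tv v → ∀ w ∈ Submodule.span F A, α γ • w ∈ Submodule.span F A := by
      intro γ v hv w hw
      induction hw using Submodule.span_induction with
      | mem x hx =>
        rw [hv, tv_smul]
        by_cases h0 : B x v = 0
        · rw [h0, zero_smul, add_zero]; exact Submodule.subset_span hx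
        by_cases h1 : B v a = 0
        · exact Submodule.subset_span ⟨hx.1.add_smul hM (hf v ⟨γ, hv⟩) h0 _, by simpa [h1] using hx.2⟩
        · exact add_mem (Submodule.subset_span hx)
            (Submodule.smul_mem _ _ (Submodule.subset_span ⟨hf v ⟨γ, hv⟩, h1⟩))
      | zero => simp
      | add x y _ _ hx hy => rw [smul_add]; exact add_mem hx hy
      | smul c x _ hx => rw [smul_smul']; exact Submodule.smul_mem _ c hx
    let H : Subgroup Γ :=
      { carrier := {γ | ∀ w, α γ • w ∈ Submodule.span F A ↔ w ∈ Submodule.span F A}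
        mul_mem' := fun h1 h2 w => by rw [map_mul, mul_smul, h1, h2]
        one_mem' := fun w => by simp
        inv_mem' := fun {γ} h1 w => by rw [← h1, map_inv, smul_inv_smul] }
    have hH : H = ⊤ := ha.gen hα ha0 fun γ v hv w => ⟨fun h => by
      have := key γ v hv _ h
      rwa [← mul_smul, hv, tv_sq, one_smul] at this, key γ v hv w⟩
    obtain ⟨d, hd, hd0⟩ := ha.exists_ne hα ha0 ha0
    rcases hα.irr (Submodule.span F A) (fun γ w hw =>
      ((show γ ∈ H from hH ▸ trivial) w).2 hw) with e | e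
    · have : d = 0 := (Submodule.mem_bot F).1 (e ▸ Submodule.subset_span ⟨hf d hd, hd0⟩)
      simp [this] at hd0
    · have : Submodule.span F A ≤ LinearMap.ker (B.flip p) :=
        Submodule.span_le.2 fun w hw => hc w hw.1 hw.2
      exact hp0 (B_nd fun x => this (e ▸ trivial))

theorem case1a (hα : Good α) {l : F} (hl : l ∈ kf α) (h0 : l ≠ 0) (h1 : l ≠ 1) {a b : V F}
    (ha : X α a) (hb : X α b) : B a b ∈ kf α := by
  by_cases hab : B a b = 0
  · rw [hab]; exact zero_mem _
  have ha0 : a ≠ 0 := by rintro rfl; simp at hab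
  obtain ⟨c, hc⟩ := exists_sq (B a b)⁻¹
  have hc' : c ^ 2 * B a b = 1 := by rw [hc, inv_mul_cancel₀ hab]
  have hl1 : 1 + l ≠ 0 := fun h => h1 (by grind)
  have e1 := ha.swap' hα.inj hb hc'
  have e2 := hl _ (((kf α).pow_mem hl 2 a ha).swap' hα.inj hb (c := l⁻¹ * c) (by
    rw [map_smul, LinearMap.smul_apply, smul_eq_mul, ← hc']; field_simp))
  rw [smul_smul, ← mul_assoc, mul_inv_cancel₀ h0, one_mul] at e2
  have e3 := e1.swap' hα.inj e2 (c := (1 + l)⁻¹) (by
    simp [B_comm b a]; field_simp; grind)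
  have e4 : (1 + l)⁻¹ • (c • (a + b) + c • (l ^ 2 • a + b)) = (c * (1 + l)) • a := by
    ext i; simp; field_simp; grind
  rw [e4] at e3
  have e5 := mem_kf hα ha ha0 e3
  have e6 : c ∈ kf α := by
    have := (kf α).div_mem e5 ((kf α).add_mem (kf α).one_mem hl)
    rwa [mul_div_cancel_right₀ _ hl1] at this
  have := (kf α).inv_mem ((kf α).pow_mem e6 2)
  rwa [hc, inv_inv] at this

end Cfsg.Agent.H9.S4
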