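import Cfsg.Agent.H9.S4.D1

/-! Simple subgroups of `Sp₄(2^n)` containing transvections, part 2. -/

set_option autoImplicit false
set_option linter.unusedSectionVars false
open Matrix Cfsg.Lie Cfsg.Agent.H4.Suz Cfsg.Agent.H8.M3

namespace Cfsg.Agent.H9.S4

variable {F : Type*} [Field F] [CharP F 2] [Finite F] {Γ : Type*} [Group Γ] [Finite Γ]
  {α : Γ →* G F}

theorem tv_U0 {c : V F} (h : tv c ∈ U0) : c 2 = 0 ∧ c 3 = 0 := by
  have h1 := (U0_le_Pl h).2.1
  have h2 := (U0_le_Pl h).2.2.1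
  simp [tv_m, Fin.rev] at h1 h2
  exact ⟨h2, h1⟩

theorem X.inv (hα : Good α) {i : Γ} {a : V F} (hi : α i = tv a) : i * i = 1 :=
  hα.inj (by rw [map_mul, hi, tv_sq, map_one])

theorem sylow_odd (P : Sylow 2 Γ) : Odd (P : Subgroup Γ).index :=
  Nat.not_even_iff_odd.1 fun h => P.not_dvd_index (even_iff_two_dvd.1 h)

theorem exists_tv_mem (hα : Good α) {T : Subgroup Γ} (hT : Odd T.index) {a : V F} (ha : X α a)
    (ha0 : a ≠ 0) : ∃ i ∈ T, ∃ c, c ≠ 0 ∧ α i = tv c := by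
  obtain ⟨i, hi⟩ := ha
  obtain ⟨m, -, hm⟩ := conj_into le_top hT (i := i) trivial (X.inv hα hi)
  refine ⟨_, hm, (α m)⁻¹ • a, by simpa [smul_eq_zero_iff_eq] using ha0, ?_⟩
  rw [← tv_conj, ← hi]; simp

theorem TR (hα : Good α) {T : Subgroup Γ} (hT : Odd T.index) (hU : ∀ γ ∈ T, α γ ∈ U0) (y : V F)
    (hs : ∀ γ ∈ T, (α γ).m 0 1 * y 3 = 0)
    (hy : ∀ c, X α c → c ≠ 0 → c 2 = 0 → c 3 = 0 → B y c = 1) {a : V F} (ha : X α a)
    (ha0 : a ≠ 0) : False := by
  let _ := ZMod.algebra F 2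
  obtain ⟨l, hl⟩ : ∃ l : Module.Dual (ZMod 2) F, l 1 ≠ 0 := by
    by_contra! h
    exact one_ne_zero ((Module.forall_dual_apply_eq_zero_iff (ZMod 2) (1 : F)).1 h)
  let χ : T →* Multiplicative (ZMod 2) :=
    { toFun γ := Multiplicative.ofAdd (l (B y (α γ • y)))
      map_one' := by simp
      map_mul' a b := by
        rw [← ofAdd_add, ← map_add]
        congr 2
        obtain ⟨s, t, x, θ, h1⟩ := hU a a.2
        obtain ⟨s', t', x', θ', h2⟩ := hU b b.2
        have h3 : s * y 3 = 0 := by simpa [h1, u_m] using hs a a.2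
        have h4 : s' * y 3 = 0 := by simpa [h2, u_m] using hs b b.2
        rw [Subgroup.coe_mul, map_mul, mul_smul, h1, h2]
        simp [u_smul, B_apply]
        grind }
  have hχ : ∀ (γ : T) c, c ≠ 0 → α γ = tv c → χ γ ≠ 1 := fun γ c hc h => by
    obtain ⟨h2, h3⟩ := tv_U0 (h ▸ hU γ γ.2)
    change Multiplicative.ofAdd (l (B y (α γ • y))) ≠ 1
    simpa [h, tv_smul, hy c ⟨γ, h⟩ hc h2 h3] using hl
  obtain ⟨i, hi, c, hc, h⟩ := exists_tv_mem hα hT ha ha0
  have h2 : χ.ker.index = 2 := by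
    rw [Subgroup.index_ker, MonoidHom.range_eq_top_of_surjective, Subgroup.card_top]
    · simp
    · intro x
      by_cases hx : x = 1
      · exact ⟨1, by simp [hx]⟩
      · refine ⟨⟨i, hi⟩, ?_⟩
        have := hχ ⟨i, hi⟩ c hc h
        revert this hx
        generalize χ ⟨i, hi⟩ = z
        revert x z
        decide
  obtain ⟨g, ⟨γ, hγ⟩, h3, h4⟩ := hα.sn.thompson (χ.ker.map T.subtype) (by
    rw [Subgroup.index_map_subtype, h2]
    obtain ⟨k, hk⟩ := hT
    omega) (X.inv hα h)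
  refine hχ ⟨γ, hγ⟩ ((α g)⁻¹ • c) (by simpa [smul_eq_zero_iff_eq] using hc) ?_ h3
  change γ = _ at h4
  subst h4
  rw [← tv_conj, ← h]; simp

theorem lemD (hα : Good α) {z : Γ} {x θ : F} (hz : α z = u 0 0 x θ) (hx : x ≠ 0) (hθ : θ ≠ 0)
    {v : V F} (hv : X α v) :
    v 3 = 0 ∨ ∃ c, X α c ∧ c ≠ 0 ∧ c 2 = 0 ∧ c 3 = 0 ∧ B c v = 0 := by
  obtain ⟨i, hi⟩ := hv
  by_cases h3 : v 3 = 0
  · exact Or.inl h3
  right
  rcases Sp.dihedral (M := ⊤) (i := i) (j := z) (X.inv hα hi)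
    (hα.inj (by rw [map_mul, hz, u_sq, map_one, u_eq_one]; simp)) trivial trivial with
    ⟨s, -, -, h⟩ | ⟨c, -, c1, -, h1, h2, -⟩
  · have := congrArg α h
    rw [map_mul, map_mul, map_inv, hi, tv_conj, hz] at this
    have e1 := congrFun₂ (congrArg G.m this) 0 2
    have e2 := congrFun₂ (congrArg G.m this) 1 2
    simp [tv_m, u_m, Fin.rev] at e1 e2
    exact absurd (by rw [← e1, e2, mul_zero]) hx
  · obtain ⟨s, t, x', θ', hc⟩ := cent_z (g := α c) hx hθ (by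
      rw [← hz, ← map_mul, ← map_mul, ← mul_inv_eq_iff_eq_mul.1 h2])
    have e := tv_comm (g := α c) (v := v) (by rw [← hi]; simpa using congrArg α h1)
    rw [hc, u_smul] at e
    have e0 := congrFun e 0
    have e1 := congrFun e 1
    have e2 := congrFun e 2
    simp [h3] at e0 e1 e2
    subst e2
    obtain ⟨r, rfl⟩ := exists_sq θ'
    obtain ⟨r', rfl⟩ := exists_sq t
    have e4 : (r * v 3 + r' * v 2) ^ 2 = 0 := by grind
    have e5 := pow_eq_zero_iff two_ne_zero |>.1 e4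
    have e6 : x' = r * r' := by
      apply mul_right_cancel₀ h3
      grind
    have e7 : α c = tv ![r, r', 0, 0] := by rw [tv_l, hc, e6]
    refine ⟨![r, r', 0, 0], ⟨c, e7⟩, fun h => c1 (hα.inj ?_), rfl, rfl, by simpa [B_apply] using e5⟩
    rw [e7, h, tv_zero, map_one]

theorem case_d (hα : Good α) {a : V F} (ha : X α a) (ha0 : a ≠ 0)
    (h0 : ∀ a b, X α a → X α b → a ≠ 0 → b ≠ 0 → B a b = 0 → a = b) : False := by
  have hc : ∀ g a b, X (cj g α) a → X (cj g α) b → a ≠ 0 → b ≠ 0 → B a b = 0 → a = b :=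
    fun g a b ha hb h1 h2 h3 => MulAction.injective g⁻¹ (h0 _ _ (X_cj'.1 ha) (X_cj'.1 hb)
      (by simpa [smul_eq_zero_iff_eq] using h1) (by simpa [smul_eq_zero_iff_eq] using h2)
      (by rwa [B_smul]))
  have no : ∀ g γ s x θ, cj g α γ = u s 0 x θ → ¬ (s = 0 ∧ x = 0) → θ = 0 := by
    intro g γ s x θ h h1
    by_contra h2
    obtain ⟨k, -, -, x', hx, hk⟩ := nf_p s x θ
    obtain ⟨v, hv, hv0⟩ := (X_cj.2 ha).exists_ne (hα.cj (k * g))
      (by simpa [smul_eq_zero_iff_eq] using ha0) (e_ne 0)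
    rcases lemD (hα.cj (k * g)) (z := γ) (by rw [← hk, ← h]; simp [cj_apply, mul_assoc])
      (fun h => h1 (hx h)) h2 hv with h3 | ⟨c, h3, h4, -, h5, h6⟩
    · exact hv0 (by rw [B_e]; exact h3)
    · rw [← hc _ _ _ h3 hv h4 (by rintro rfl; simp at hv0) h6, B_e] at hv0
      exact hv0 h5
  obtain ⟨P⟩ : Nonempty (Sylow 2 Γ) := inferInstance
  obtain ⟨g, hg⟩ := flag P.isPGroup' (α.comp (P : Subgroup Γ).subtype)
  have hU : ∀ γ ∈ (P : Subgroup Γ), cj g α γ ∈ U0 := fun γ h => hg ⟨γ, h⟩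
  have ha' : g • a ≠ 0 := by simpa [smul_eq_zero_iff_eq] using ha0
  obtain ⟨i, hi, c, c0, hic⟩ := exists_tv_mem (hα.cj g) (sylow_odd P) (X_cj.2 ha) ha'
  obtain ⟨c2, c3⟩ := tv_U0 (hic ▸ hU i hi)
  have hl : ∀ d, X (cj g α) d → d ≠ 0 → d 2 = 0 → d 3 = 0 → d = c := fun d h1 h2 h3 h4 =>
    hc g _ _ h1 ⟨i, hic⟩ h2 c0 (by simp [B_apply, *])
  obtain ⟨y, hy⟩ := exists_B c0
  refine TR (hα.cj g) (sylow_odd P) hU y (fun γ hγ => ?_)
    (fun d h1 h2 h3 h4 => by rw [hl d h1 h2 h3 h4, hy]) (X_cj.2 ha) ha'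
  obtain ⟨s, t, x, θ, h⟩ := hU γ hγ
  rw [h, show (u s t x θ).m 0 1 = s from rfl]
  by_contra hs
  have hs : s ≠ 0 := left_ne_zero_of_mul hs
  have e := hl _ (X.smul ⟨i, hic⟩ γ) (by simpa [smul_eq_zero_iff_eq] using c0)
    (by simp [h, u_smul, c2, c3]) (by simp [h, u_smul, c3])
  have c1 : c 1 = 0 := by simpa [h, u_smul, c2, c3, hs] using congrFun e 0
  have hc0 : c 0 ≠ 0 := fun h => c0 (vext h c1 c2 c3)
  by_cases ht : t = 0
  · subst ht
    have h1 := no g γ s x θ h (fun h => hs h.1)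
    subst h1
    have h2 : c = ![c 0, 0, 0, 0] := vext rfl c1 c2 c3
    have := no g (γ * i) s x (c 0 ^ 2) (by
      rw [map_mul, h, hic, h2, tv_l, u_mul]; apply u_congr <;> simp) (fun h => hs h.1)
    exact hc0 (pow_eq_zero_iff two_ne_zero |>.1 this)
  · have := no g (γ * γ) 0 _ _ (by rw [map_mul, h, u_sq]) (fun h => mul_ne_zero hs ht h.2)
    exact mul_ne_zero (pow_ne_zero 2 hs) ht this

theorem span_of_perp {h : G F} {a b c : V F} (h0 : h • e 0 = a) (h1 : h • e 1 = b)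
    (ha : B c a = 0) (hb : B c b = 0) : ∃ p q : F, c = p • a + q • b := by
  rw [← h0, B_right, B_e] at ha
  rw [← h1, B_right, B_e] at hb
  refine ⟨(h⁻¹ • c) 0, (h⁻¹ • c) 1, ?_⟩
  rw [← h0, ← h1, ← smul_smul', ← smul_smul', ← smul_add, ← inv_smul_eq_iff]
  apply vext <;> simp [e_apply]
  exacts [hb, ha]

theorem TR' (hα : Good α) {a b : V F} (ha : X α a) (hb : X α b) (ha0 : a ≠ 0)
    (hn : ∀ c : F, b ≠ c • a) (hab : B a b = 0)
    (H : ∀ p q : F, X α (p • a + q • b) → p • a + q • b ≠ 0 → p + q = 1) : False := by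
  obtain ⟨k, k0, k1⟩ := witt_b ha0 hn hab
  obtain ⟨P, hP⟩ := IsPGroup.exists_le_sylow (p := 2) (P := U0.comap (cj k⁻¹ α)) (fun γ =>
    ⟨2, Subtype.ext ((hα.cj k⁻¹).inj (by
      have := U0_four γ.2
      simpa using this))⟩)
  obtain ⟨g, hg⟩ := flag P.isPGroup' (α.comp (P : Subgroup Γ).subtype)
  have hU : ∀ γ ∈ (P : Subgroup Γ), cj g α γ ∈ U0 := fun γ h => hg ⟨γ, h⟩
  have key : ∀ c, X α c → (k⁻¹ • c) 2 = 0 → (k⁻¹ • c) 3 = 0 → (g • c) 2 = 0 ∧ (g • c) 3 = 0 := by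
    rintro c ⟨i, hi⟩ h2 h3
    refine tv_U0 ?_
    rw [← tv_conj, ← hi]
    refine hU i (hP ?_)
    change k⁻¹ * α i * k⁻¹⁻¹ ∈ U0
    rw [hi, tv_conj, show k⁻¹ • c = ![(k⁻¹ • c) 0, (k⁻¹ • c) 1, 0, 0] from vext rfl rfl h2 h3, tv_l]
    exact u_mem ..
  obtain ⟨a2, a3⟩ := key a ha (by simp [← k0, e_apply]) (by simp [← k0, e_apply])
  obtain ⟨b2, b3⟩ := key b hb (by simp [← k1, e_apply]) (by simp [← k1, e_apply])
  have hy : ∀ c, X (cj g α) c → c ≠ 0 → c 2 = 0 → c 3 = 0 → B ((g * k) • (e 2 + e 3)) c = 1 := by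
    intro c hc c0 c2 c3
    obtain ⟨p, q, rfl⟩ := span_of_perp (h := g * k) (c := c) (by rw [mul_smul, k0])
      (by rw [mul_smul, k1]) (by simp [B_apply, *]) (by simp [B_apply, *])
    rw [← H p q (by simpa [smul_smul'] using X_cj'.1 hc) (fun h => c0 (by
      simpa [smul_smul'] using congrArg (g • ·) h)), ← k0, ← k1, ← mul_smul, ← mul_smul]
    simp [B_smul, B_e, e_apply, -smul_add]
  have hb0 : b ≠ 0 := fun h => hn 0 (by simpa using h)
  refine TR (hα.cj g) (sylow_odd P) hU _ (fun γ hγ => ?_) hy (X_cj.2 ha)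
    (by simpa [smul_eq_zero_iff_eq] using ha0)
  obtain ⟨s, t, x, θ, h⟩ := hU γ hγ
  rw [h, show (u s t x θ).m 0 1 = s from rfl]
  generalize (g * k) • (e 2 + e 3 : V F) = y at hy
  have key2 : ∀ c, X (cj g α) c → c ≠ 0 → c 2 = 0 → c 3 = 0 → s * y 3 * c 1 = 0 := by
    intro c hc c0 c2 c3
    have h1 := hy c hc c0 c2 c3
    have h2 := hy _ (hc.smul γ) (by simpa [smul_eq_zero_iff_eq] using c0)
      (by simp [h, u_smul, c2, c3]) (by simp [h, u_smul, c3])
    simp [h, u_smul, B_apply, c2, c3] at h1 h2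
    grind
  by_contra h0
  have a1 := (mul_eq_zero.1 (key2 _ (X_cj.2 ha) (by simpa [smul_eq_zero_iff_eq] using ha0)
    a2 a3)).resolve_left h0
  have b1 := (mul_eq_zero.1 (key2 _ (X_cj.2 hb) (by simpa [smul_eq_zero_iff_eq] using hb0)
    b2 b3)).resolve_left h0
  have a0 : (g • a) 0 ≠ 0 := fun h => ha0 (by
    simpa [smul_eq_zero_iff_eq] using (vext h a1 a2 a3 : g • a = 0))
  refine hn ((g • b) 0 / (g • a) 0) (MulAction.injective g ?_)
  dsimp only
  rw [smul_smul']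
  apply vext <;> simp [*]

theorem exists_odd_pow {q : F} (hq : q ≠ 0) : ∃ n, Odd n ∧ q ^ n = 1 := by
  have := Fintype.ofFinite F
  obtain ⟨n, -, hn⟩ := FiniteField.card F 2
  refine ⟨Fintype.card F - 1, ?_, FiniteField.pow_card_sub_one_eq_one q hq⟩
  rw [hn]
  exact Nat.Even.sub_odd (Nat.one_le_pow _ _ two_pos) ((Nat.even_pow' n.ne_zero).2 even_two) odd_one

theorem lemK (hα : Good α) {a b a' : V F} {p q : F} (hb : X α b) (ha' : X α a')
    (hab : B a b = 0) (h1 : B a a' = 0) (h2 : B b a' ≠ 0) (hc : X α (p • a + q • b))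
    (q0 : q ≠ 0) (q1 : q ≠ 1) : X α ((p / (1 + q)) • a) := by
  have hq : 1 + q ≠ 0 := fun h => q1 (by grind)
  obtain ⟨s1, f1, e1, -⟩ := hb.swap hα.inj ha' h2
  obtain ⟨s2, f2, e2, -⟩ := ha'.swap hα.inj hc (by
    simpa [B_comm a' a, h1, q0, B_comm a' b] using h2)
  have ka : α (s2 * s1) • a = a := by
    rw [map_mul, mul_smul, f1 a hab h1, f2 a h1 (by simp [hab])]
  have kb : α (s2 * s1) • b = p • a + q • b := by rw [map_mul, mul_smul, e1, e2]
  generalize s2 * s1 = k at ka kb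
  obtain ⟨r, hr⟩ : ∃ r, r = p / (1 + q) := ⟨_, rfl⟩
  rw [← hr]
  have hp : p = r * (1 + q) := by rw [hr]; field_simp
  obtain ⟨d, hd⟩ : ∃ d, d = b + r • a := ⟨_, rfl⟩
  have kd : α k • d = q • d := by
    rw [hd, smul_add, smul_smul', ka, kb, hp]
    ext i; simp; grind
  have had : B a d = 0 := by simp [hd, hab]
  have hda : B d a = 0 := by rw [B_comm, had]
  let E : F → F → F → Prop := fun θ x t => ∃ δ, ∀ w, α δ • w =
    w + (θ * B w a + x * B w d) • a + (x * B w a + t * B w d) • d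
  have hE : ∀ n : ℕ, E (n * r ^ 2) (r * (1 + q ^ n) / (1 + q)) ((1 + q ^ n) ^ 2 / (1 + q) ^ 2) := by
    intro n
    induction n with
    | zero => exact ⟨1, fun w => by simp [CharTwo.add_self_eq_zero]⟩
    | succ n ih =>
      obtain ⟨δ, hδ⟩ := ih
      obtain ⟨j, hj⟩ := hb
      refine ⟨j * (k * δ * k⁻¹), fun w => ?_⟩
      have hb' : b = d + r • a := by rw [hd, add_assoc, vadd_self, add_zero]
      rw [map_mul, map_mul, map_mul, map_inv, mul_smul, mul_smul, mul_smul, hδ, ← B_right,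
        ← B_right, hj, hb']
      simp only [smul_add, smul_smul', smul_inv_smul, ka, kd, tv_smul, map_add, map_smul,
        LinearMap.add_apply, LinearMap.smul_apply, B_self, had, hda, smul_eq_mul]
      ext i
      simp only [Pi.add_apply, Pi.smul_apply, smul_eq_mul]
      push_cast
      field_simp
      grind
  obtain ⟨n, ⟨m, rfl⟩, hn⟩ := exists_odd_pow q0
  obtain ⟨δ, hδ⟩ := hE (2 * m + 1)
  refine ⟨δ, G.ext_v fun w => ?_⟩
  rw [hδ, hn, tv_smul]
  ext i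
  simp [CharTwo.add_self_eq_zero, two]
  ring

theorem prop_of_perp {a b c d : V F} (ha : a ≠ 0) (hcd : B c d ≠ 0) (h1 : B a c = 0)
    (h2 : B a d = 0) (h3 : B b c = 0) (h4 : B b d = 0) (hab : B a b = 0) : ∃ t : F, b = t • a := by
  by_contra! hn
  obtain ⟨k, k0, k1⟩ := witt_b ha hn hab
  obtain ⟨p, q, rfl⟩ := span_of_perp k0 k1 (c := c) (by rwa [B_comm]) (by rwa [B_comm])
  exact hcd (by simp [h2, h4])

theorem case1 (hα : Good α) {a : V F} (ha : X α a) : a = 0 := by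
  by_contra ha0
  refine kf_ne_top hα ha ha0 (kf_top hα ha ha0 ?_)
  by_cases hk : ∃ l ∈ kf α, l ≠ 0 ∧ l ≠ 1
  · obtain ⟨l, hl, h0, h1⟩ := hk
    exact fun u v hu hv => case1a hα hl h0 h1 hu hv
  have h1 : ∀ v (c : F), X α v → v ≠ 0 → X α (c • v) → c ≠ 0 → c = 1 := fun v c hv h0 hc c0 => by
    by_contra c1
    exact hk ⟨c, mem_kf hα hv h0 hc, c0, c1⟩
  have np : ∀ a b, X α a → X α b → a ≠ 0 → b ≠ 0 → a ≠ b → ∀ c : F, b ≠ c • a := by
    rintro a b ha hb a0 b0 hab c rfl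
    exact hab (by rw [h1 a c ha a0 hb (by rintro rfl; simp at b0), one_smul])
  obtain ⟨a1, b1, ha1, hb1, a10, b10, hab1, hne1⟩ : ∃ a b, X α a ∧ X α b ∧ a ≠ 0 ∧ b ≠ 0 ∧
      B a b = 0 ∧ a ≠ b := by
    by_contra! h
    exact case_d hα ha ha0 h
  obtain ⟨a2, c2, d2, ha2, hc2, hd2, a20, e1, e2, e3⟩ : ∃ a c d, X α a ∧ X α c ∧ X α d ∧ a ≠ 0 ∧
      B a c = 0 ∧ B a d = 0 ∧ B c d ≠ 0 := by
    by_contra! h
    obtain ⟨k, k0, k1⟩ := witt_b (a := a1 + b1) (b := a1) (fun h => hne1 (vadd_eq_zero.1 h))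
      (fun c hc => by
        by_cases c0 : c = 0
        · exact a10 (by simpa [c0] using hc)
        refine np a1 b1 ha1 hb1 a10 b10 hne1 (c⁻¹ + 1) ?_
        have : c⁻¹ • a1 = a1 + b1 := by rw [inv_smul_eq_iff₀ c0]; exact hc
        rw [add_smul, this, one_smul, add_right_comm, vadd_self, zero_add])
      (by simp [B_comm b1 a1, hab1])
    have f1 : k⁻¹ • a1 = ![0, 1, 0, 0] := by
      rw [← k1, inv_smul_smul]; apply vext <;> simp [e_apply]
    have f2 : k⁻¹ • b1 = ![1, 1, 0, 0] := by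
      rw [show b1 = k • (e 0 + e 1) by rw [smul_add, k0, k1, add_right_comm, vadd_self, zero_add],
        inv_smul_smul]
      apply vext <;> simp [e_apply]
    have xa := (X_cj (g := k⁻¹)).2 ha1
    have xb := (X_cj (g := k⁻¹)).2 hb1
    obtain ⟨v, hv, hv0⟩ := xa.exists_ne (hα.cj k⁻¹)
      (by simpa [smul_eq_zero_iff_eq] using a10) (e_ne 0)
    obtain ⟨i, hi⟩ := xa
    obtain ⟨j, hj⟩ := xb
    rcases lemD (hα.cj k⁻¹) (z := i * j) (x := 1) (θ := 1) (by
      rw [map_mul, hi, hj, f1, f2, tv_l, tv_l, u_mul]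
      apply u_congr <;> simp [CharTwo.add_self_eq_zero]) one_ne_zero one_ne_zero hv with
      h3 | ⟨c, h3, h4, h5, h6, h7⟩
    · exact hv0 (by rw [B_e]; exact h3)
    · have g : ∀ b, X α b → (k⁻¹ • b) 2 = 0 → (k⁻¹ • b) 3 = 0 → B v (k⁻¹ • b) = 0 :=
        fun b hb b2 b3 => by
          have := h _ _ _ (X_cj'.1 h3) (X_cj'.1 hv) hb
            (by simpa [smul_eq_zero_iff_eq] using h4) (by rwa [B_smul])
            (by rw [B_left, inv_inv]; simp [B_apply, *])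
          rwa [B_left, inv_inv] at this
      have g1 := g a1 ha1 (by simp [f1]) (by simp [f1])
      have g2 := g b1 hb1 (by simp [f2]) (by simp [f2])
      simp [f1, f2, B_apply, e_apply] at g1 g2 hv0
      exact hv0 (by simpa [g1] using g2)
  have nb : ∀ a b, X α a → X α b → a ≠ 0 → b ≠ 0 → a ≠ b → B a b = 0 →
      ∃ a', X α a' ∧ B a a' = 0 ∧ B b a' ≠ 0 := by
    intro a b ha hb a0 b0 hab h
    obtain ⟨γ, rfl⟩ := ha2.trans hα ha a20 a0
    by_contra! hc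
    obtain ⟨t, ht⟩ := prop_of_perp a0 (c := α γ • c2) (d := α γ • d2) (by rwa [B_smul])
      (by rwa [B_smul]) (by rwa [B_smul]) (hc _ (hc2.smul γ) (by rwa [B_smul]))
      (hc _ (hd2.smul γ) (by rwa [B_smul])) h
    exact np _ _ ha hb a0 b0 hab t ht
  have K : ∀ a b, X α a → X α b → a ≠ 0 → b ≠ 0 → a ≠ b → B a b = 0 → ∀ p q : F,
      X α (p • a + q • b) → q = 0 ∨ q = 1 ∨ p + q = 1 := by
    intro a b ha hb a0 b0 hab h p q hc
    by_contra! hh
    obtain ⟨q0, q1, pq⟩ := hh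
    have hq : 1 + q ≠ 0 := fun h => q1 (by grind)
    obtain ⟨a', ha', f1, f2⟩ := nb a b ha hb a0 b0 hab h
    have := lemK hα hb ha' h f1 f2 hc q0 q1
    by_cases p0 : p = 0
    · exact q1 (h1 b q hb b0 (by simpa [p0] using hc) q0)
    · have := h1 a _ ha a0 this (div_ne_zero p0 hq)
      rw [div_eq_one_iff_eq hq] at this
      exact pq (by grind)
  have L2 : ∀ a b, X α a → X α b → a ≠ 0 → b ≠ 0 → a ≠ b → B a b = 0 → ∀ p q : F,
      X α (p • a + q • b) → p • a + q • b ≠ 0 → p + q = 1 ∨ (p = 1 ∧ q = 1) := by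
    intro a b ha hb a0 b0 hab h p q hc hc0
    have k1 := K a b ha hb a0 b0 hab h p q hc
    have k2 := K b a hb ha b0 a0 hab.symm (by rwa [B_comm]) q p (by rwa [add_comm])
    have k3 : q = 0 → p = 1 := fun q0 => h1 a p ha a0 (by simpa [q0] using hc) (by
      rintro rfl; simp [q0] at hc0)
    grind
  have L3 : ∀ a b, X α a → X α b → a ≠ 0 → b ≠ 0 → a ≠ b → B a b = 0 → X α (a + b) := by
    intro a b ha hb a0 b0 hab h
    by_contra hn
    refine TR' hα ha hb a0 (np a b ha hb a0 b0 hab) h fun p q hc hc0 => ?_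
    rcases L2 a b ha hb a0 b0 hab h p q hc hc0 with e | ⟨rfl, rfl⟩
    · exact e
    · exact absurd (by simpa using hc) hn
  intro v a hv ha
  by_cases h0 : B v a = 0
  · rw [h0]; exact zero_mem _
  have a0 : a ≠ 0 := by rintro rfl; simp at h0
  have v0 : v ≠ 0 := by rintro rfl; simp at h0
  obtain ⟨γ, rfl⟩ := ha1.trans hα ha a10 a0
  have hb := hb1.smul γ
  have b0 : α γ • b1 ≠ 0 := by simpa [smul_eq_zero_iff_eq] using b10
  have hab : B (α γ • a1) (α γ • b1) = 0 := by rwa [B_smul]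
  have hne : α γ • a1 ≠ α γ • b1 := fun h => hne1 (MulAction.injective _ h)
  generalize α γ • a1 = a at *
  generalize α γ • b1 = b at *
  have hs := L3 a b ha hb a0 b0 hne hab
  have hba : B b a = 0 := by rwa [B_comm]
  have hn0 : B v a • b + B v b • a ≠ 0 := fun h => np a b ha hb a0 b0 hne (B v b / B v a) (by
    rw [vadd_eq_zero] at h
    rw [div_eq_inv_mul, mul_smul, ← h, smul_smul, inv_mul_cancel₀ h0, one_smul])
  have hv' : X α (v + (B v a • b + B v b • a)) := by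
    obtain ⟨i, hi⟩ := ha
    obtain ⟨j, hj⟩ := hb
    obtain ⟨k, hk⟩ := hs
    convert hv.smul (i * j * k) using 1
    simp only [map_mul, mul_smul, hi, hj, hk, tv_smul, map_add, map_smul, LinearMap.add_apply,
      LinearMap.smul_apply, B_self, hab, hba, smul_eq_mul]
    ext n
    simp only [Pi.add_apply, Pi.smul_apply, smul_eq_mul]
    grind
  have hw := L3 v _ hv hv' v0 (fun h => by
    have := congrArg (B · a) h
    simp [hba, h0] at this) (fun h => hn0 (by simpa using h))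
    (by simp; grind)
  rw [← add_assoc, vadd_self, zero_add] at hw
  have e : B v a • b + B v b • a = (B v a + B v b) • b + B v b • (a + b) := by
    ext n; simp; grind
  rw [e] at hw hn0
  rcases L2 b (a + b) hb hs b0 (fun h => hne (vadd_eq_zero.1 h)) (fun h => a0 (by simpa using h))
    (by simp [hba]) _ _ hw hn0 with h | h
  · rw [show B v a = 1 by grind]; exact one_mem _
  · exact absurd (by grind) h0

end Cfsg.Agent.H9.S4
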