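import Cfsg.Agent.H9.S4.D2

/-! Simple subgroups of `Sp₄(2^n)` without root elements: the set-up. -/

set_option autoImplicit false
set_option linter.unusedSectionVars false
open Matrix Cfsg.Lie Cfsg.Agent.H4.Suz Cfsg.Agent.H8.M3

namespace Cfsg.Agent.H9.S4

variable {F : Type*} [Field F] [CharP F 2] [Finite F] {Γ : Type*} [Group Γ] [Finite Γ]
  {α : Γ →* G F}

theorem Good.rf1 (hα : Good α) {γ : Γ} {θ : F} (h : α γ = u 0 0 0 θ) : θ = 0 := by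
  obtain ⟨r, rfl⟩ := exists_sq θ
  have := case1 hα (a := ![r, 0, 0, 0]) ⟨γ, by rw [h, tv_l]; simp⟩
  simpa using congrFun this 0

theorem Good.rf2 (hα : Good α) {γ : Γ} {x : F} (h : α γ = u 0 0 x 0) : x = 0 := by
  have := hα.st.rf1 (γ := γ) (θ := x ^ 2) (by
    rw [MonoidHom.comp_apply, h, st_u]; simp)
  simpa using this

theorem Good.eq_one (hα : Good α) {γ : Γ} (h : α γ = u 0 0 0 0) : γ = 1 :=
  hα.inj (by rw [h, u_zero, map_one])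

theorem Good.rf (hα : Good α) {γ : Γ} {s x θ : F} (h : α γ = u s 0 x θ) (h1 : γ ≠ 1) :
    θ ≠ 0 ∧ (s = 0 → x ≠ 0) := by
  constructor
  · rintro rfl
    obtain ⟨k, -, -, x', hx, hk⟩ := nf_p s x 0
    obtain ⟨rfl, rfl⟩ := hx ((hα.cj k).rf2 (γ := γ) (by rw [cj_apply, h, hk]))
    exact h1 (hα.eq_one h)
  · rintro rfl rfl
    obtain rfl := hα.rf1 h
    exact h1 (hα.eq_one h)

theorem Good.nf (hα : Good α) {i : Γ} (hi : i * i = 1) (h1 : i ≠ 1) :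
    ∃ g x θ, x ≠ 0 ∧ θ ≠ 0 ∧ S4.cj g α i = u 0 0 x θ := by
  obtain ⟨g, x, θ, h⟩ := S4.nf (A := α i) (by rw [← map_mul, hi, map_one])
  have := (hα.cj g).rf (γ := i) h h1
  exact ⟨g, x, θ, this.2 rfl, this.1, h⟩

theorem Good.cit (hα : Good α) : CIT Γ := by
  intro i d hi h1 hd
  obtain ⟨g, x, θ, hx, hθ, h⟩ := hα.nf hi h1
  have := U0_four (cent_z (g := S4.cj g α d) hx hθ (by rw [← h, ← map_mul, hd, map_mul]))
  exact (hα.cj g).inj (by rw [map_pow, this, map_one])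

/-- standard position -/
structure Std (α : Γ →* G F) (z : Γ) : Prop where
  good : Good α
  z1 : z ≠ 1
  hz : ∃ x θ, α z = u 0 0 x θ
  odd : Odd (U0.comap α).index

theorem exists_central {P : Subgroup Γ} (hP : IsPGroup 2 P) (h : P ≠ ⊥) :
    ∃ c, c * c = 1 ∧ c ≠ 1 ∧ ∀ γ ∈ P, γ * c = c * γ := by
  have := (Subgroup.nontrivial_iff_ne_bot P).2 h
  have := hP.center_nontrivial
  have h2 : 2 ∣ Nat.card (Subgroup.center P) :=
    (hP.to_subgroup _).card_eq_or_dvd.resolve_left Finite.one_lt_card.ne'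
  obtain ⟨⟨⟨c, hc1⟩, hc2⟩, hc⟩ := exists_prime_orderOf_dvd_card' 2 h2
  rw [Subgroup.orderOf_mk, Subgroup.orderOf_mk] at hc
  refine ⟨c, by rw [← sq, ← hc, pow_orderOf_eq_one], ?_, fun γ hγ =>
    congrArg Subtype.val (Subgroup.mem_center_iff.1 hc2 ⟨γ, hγ⟩)⟩
  rintro rfl
  simp at hc

theorem Good.exists_std (hα : Good α) : ∃ g z, Std (S4.cj g α) z := by
  obtain ⟨P⟩ : Nonempty (Sylow 2 Γ) := inferInstance
  obtain ⟨c, h2, h1, h3⟩ := exists_central P.isPGroup' (fun h => by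
    obtain ⟨Q, hQ, h1⟩ := avg (sylow_odd P) α isQ0 (fun γ hγ v => by
      rw [h, Subgroup.mem_bot] at hγ
      rw [hγ, map_one, one_smul])
    exact hα.noQ Q hQ h1)
  obtain ⟨g, x, θ, hx, hθ, h⟩ := hα.nf h2 h1
  refine ⟨g, c, hα.cj g, h1, ⟨x, θ, h⟩, (sylow_odd P).of_dvd_nat (Subgroup.index_dvd_of_le ?_)⟩
  intro γ hγ
  refine cent_z hx hθ ?_
  rw [← h, ← map_mul, ← map_mul, h3 γ hγ]

namespace Std
variable {z : Γ} (H : Std α z)
include H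

theorem st : Std (st.comp α) z := by
  obtain ⟨x, θ, h⟩ := H.hz
  refine ⟨H.good.st, H.z1, ⟨θ, x ^ 2, by rw [MonoidHom.comp_apply, h, st_u]; simp⟩, ?_⟩
  exact H.odd.of_dvd_nat (Subgroup.index_dvd_of_le fun γ hγ => st_mem_U0.2 hγ)

theorem cju (s t x θ : F) : Std (cj (u s t x θ) α) z := by
  obtain ⟨x', θ', h⟩ := H.hz
  refine ⟨H.good.cj _, H.z1, ⟨x', θ', by rw [cj_apply, h, u_conj]; simp⟩, ?_⟩
  exact H.odd.of_dvd_nat (Subgroup.index_dvd_of_le fun γ hγ =>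
    U0.mul_mem (U0.mul_mem (u_mem ..) hγ) (U0.inv_mem (u_mem ..)))

theorem cjh (l m : F) (hl : l ≠ 0) (hm : m ≠ 0) : Std (cj (h l m hl hm) α) z := by
  obtain ⟨x', θ', h1⟩ := H.hz
  refine ⟨H.good.cj _, H.z1, ⟨l * m * x', l ^ 2 * θ', by rw [cj_apply, h1, h_conj]; simp⟩, ?_⟩
  refine H.odd.of_dvd_nat (Subgroup.index_dvd_of_le ?_)
  rintro γ ⟨s, t, x, θ, h2⟩
  exact ⟨_, _, _, _, by rw [cj_apply, h2, h_conj]⟩

theorem hz' : ∃ x θ, x ≠ 0 ∧ θ ≠ 0 ∧ α z = u 0 0 x θ := by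
  obtain ⟨x, θ, h⟩ := H.hz
  exact ⟨x, θ, (H.good.rf h H.z1).2 rfl, (H.good.rf h H.z1).1, h⟩

theorem sq : z * z = 1 := by
  obtain ⟨x, θ, h⟩ := H.hz
  exact H.good.eq_one (by rw [map_mul, h, u_sq]; simp)

theorem cz (γ : Γ) : α γ ∈ U0 ↔ γ * z = z * γ := by
  obtain ⟨x, θ, hx, hθ, h⟩ := H.hz'
  constructor
  · rintro ⟨s, t, x', θ', h1⟩
    apply H.good.inj
    rw [map_mul, map_mul, h, h1, u_mul, u_mul]
    apply u_congr <;> grind
  · intro h1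
    exact cent_z hx hθ (by rw [← h, ← map_mul, h1, map_mul])

theorem exists_w : ∃ w, w * w = 1 ∧ α w ∉ Pp := by
  by_contra! h
  obtain ⟨γ, h1⟩ := H.good.irr.not_Pp
  have := H.good.gen H.z1 (H := Pp.comap α) fun g => h _ (by rw [conj_mul, H.sq]; simp)
  exact h1 (show γ ∈ Pp.comap α from this ▸ trivial)

end Std

/-- the unipotent radical of the point stabiliser -/
def Ep (α : Γ →* G F) : Subgroup Γ where
  carrier := {γ | ∃ s x θ, α γ = u s 0 x θ}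
  mul_mem' := by
    rintro a b ⟨s, x, θ, h⟩ ⟨s', x', θ', h'⟩
    exact ⟨_, _, _, by rw [map_mul, h, h', u_mul, add_zero]⟩
  one_mem' := ⟨0, 0, 0, by rw [map_one, u_zero]⟩
  inv_mem' := by
    rintro a ⟨s, x, θ, h⟩
    exact ⟨_, _, _, by rw [map_inv, h, u_inv]⟩

theorem Ep_conj {m e : Γ} (hm : α m ∈ Pp) (he : e ∈ Ep α) : m * e * m⁻¹ ∈ Ep α := by
  obtain ⟨s, x, θ, h⟩ := he
  exact ⟨_, _, _, by rw [map_mul, map_mul, map_inv, h, conj_Qp hm]⟩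

theorem Good.Ep_sq (hα : Good α) {e : Γ} (he : e ∈ Ep α) : e * e = 1 := by
  obtain ⟨s, x, θ, h⟩ := he
  exact hα.eq_one (by rw [map_mul, h, u_sq]; simp)

theorem Good.Pp_of_conj (hα : Good α) {g e : Γ} (he : e ∈ Ep α) (h1 : e ≠ 1)
    (h : g * e * g⁻¹ ∈ Ep α) : α g ∈ Pp := by
  obtain ⟨s, x, θ, h2⟩ := he
  obtain ⟨s', x', θ', h3⟩ := h
  exact mem_Pp_of_conj (s' := s') (x' := x') (θ' := θ') (hα.rf h2 h1).1 (by rw [← h2, ← h3]; simp)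

/-- no involutions of the line radical outside the centre -/
def NoL (α : Γ →* G F) : Prop := ∀ γ t x θ, α γ = u 0 t x θ → t = 0

theorem NoL.cju (h : NoL α) (s t x θ : F) : NoL (cj (u s t x θ) α) := by
  intro γ t' x' θ' h1
  rw [cj_apply, mul_inv_eq_iff_eq_mul, ← eq_inv_mul_iff_mul_eq, ← mul_assoc] at h1
  nth_rewrite 2 [← inv_inv (u s t x θ)] at h1
  rw [u_inv s, u_conj] at h1
  exact h _ _ _ _ h1

namespace Std
variable {z : Γ} (H : Std α z) (hL : NoL α)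
include H hL

theorem invE {m : Γ} (hm : α m ∈ Pp) (h2 : m * m = 1) : m ∈ Ep α := by
  obtain ⟨n, hn, s, t, x, θ, h⟩ := conj_into (T := U0.comap α) (M := Pp.comap α)
    (fun _ h => U0_le_Pp h) H.odd hm h2
  have h3 : u s t x θ * u s t x θ = 1 := by
    rw [← h, ← map_mul, show n⁻¹ * m * n * (n⁻¹ * m * n) = n⁻¹ * (m * m) * n by group, h2]; simp
  rw [u_sq, u_eq_one] at h3
  have ht : t = 0 := by
    rcases mul_eq_zero.1 h3.2.2.1 with rfl | h4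
    exacts [hL _ _ _ _ h, h4]
  subst ht
  simpa [mul_assoc] using Ep_conj hn ⟨s, x, θ, h⟩

theorem big : ∃ e ∈ Ep α, e ≠ 1 ∧ e ≠ z := by
  by_contra! h
  obtain ⟨x0, θ0, hx, hθ, hz⟩ := H.hz'
  have hT : IsPGroup 2 (U0.comap α) := fun γ =>
    ⟨2, Subtype.ext (H.good.inj (by simpa using U0_four γ.2))⟩
  let P : Sylow 2 Γ := hT.toSylow (fun h => Nat.not_even_iff_odd.2 H.odd (even_iff_two_dvd.2 h))
  have hP : (P : Subgroup Γ) = U0.comap α := rfl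
  have key : ∀ γ s t x θ, α γ = u s t x θ → (s = 0 ∧ t = 0) ∨ (s * t = x0 ∧ s ^ 2 * t = θ0) := by
    intro γ s t x θ h1
    have h2 : α (γ * γ) = u 0 0 (s * t) (s ^ 2 * t) := by rw [map_mul, h1, u_sq]
    by_cases h3 : γ * γ = 1
    · left
      by_cases h4 : γ = 1
      · rw [h4, map_one, eq_comm, u_eq_one] at h1
        exact ⟨h1.1, h1.2.1⟩
      · rw [h _ (H.invE hL (h1 ▸ u_Pp ..) h3) h4, hz] at h1
        exact ⟨(u_inj h1).1.symm, (u_inj h1).2.1.symm⟩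
    · right
      rw [h _ ⟨_, _, _, h2⟩ h3, hz] at h2
      exact ⟨(u_inj h2).2.2.1.symm, (u_inj h2).2.2.2.symm⟩
  have := H.good.sn.burnside P fun n hn γ hγ => by
    have h1 : n * z * n⁻¹ ∈ U0.comap α :=
      (Subgroup.mem_normalizer_iff.1 hn z).1 ((H.cz z).2 rfl)
    have h2 := h _ (H.invE hL (U0_le_Pp h1) (by rw [conj_mul, H.sq]; simp)) (by simpa using H.z1)
    obtain ⟨s, t, x, θ, h3⟩ := (H.cz n).2 (mul_inv_eq_iff_eq_mul.1 h2)
    obtain ⟨s', t', x', θ', h4⟩ := hγ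
    have k1 := key _ _ _ _ _ h3
    have k2 := key _ _ _ _ _ h4
    apply H.good.inj
    rw [map_mul, map_mul, h3, h4, u_mul, u_mul]
    have : (s = 0 ∧ t = 0) ∨ (s' = 0 ∧ t' = 0) ∨ (s = s' ∧ t = t') := by
      rcases k1 with k1 | k1
      · exact Or.inl k1
      rcases k2 with k2 | k2
      · exact Or.inr (Or.inl k2)
      have : s = s' := mul_right_cancel₀ hx (by grind)
      subst this
      exact Or.inr (Or.inr ⟨rfl, by grind⟩)
    rcases this with ⟨rfl, rfl⟩ | ⟨rfl, rfl⟩ | ⟨rfl, rfl⟩ <;> apply u_congr <;> grind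
  exact H.z1 (Subgroup.mem_bot.1 (this ▸ (H.cz z).2 rfl))

theorem zh : ZH (Pp.comap α) (U0.comap α) (Ep α) z where
  se g i hi h2 h1 h := H.good.Pp_of_conj (H.invE hL hi h2) h1
    (H.invE hL h (by rw [conj_mul, h2]; simp))
  cit := H.good.cit
  TM _ h := U0_le_Pp h
  EM := by rintro γ ⟨s, x, θ, h⟩; exact (show α γ ∈ Pp from h ▸ u_Pp ..)
  nE _ hm _ he := Ep_conj hm he
  sqE _ he := H.good.Ep_sq he
  invE _ hm h := H.invE hL hm h
  zE := by obtain ⟨x, θ, h⟩ := H.hz; exact ⟨0, x, θ, h⟩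
  z1 := H.z1
  cz := H.cz
  big := H.big hL

theorem orbit {w : Γ} (hw : w * w = 1) (hwM : α w ∉ Pp) {y : V F} (hy : y ≠ 0) (h0 : y 3 = 0) :
    ∃ t, α t ∈ U0 ∧ B (α t • α w • e 0) y ≠ 0 := by
  obtain ⟨γ, h⟩ := H.good.irr.perp (e_ne 0) hy
  by_cases hγ : α γ ∈ Pp
  · exact absurd (by simp [Pp_smul hγ, B_apply, e_apply, h0]) h
  obtain ⟨t, ht, m, hm, rfl⟩ := (H.zh hL).bruhat hw hwM hγ
  refine ⟨t, ht, fun h1 => h ?_⟩
  simp [mul_smul, Pp_smul hm, smul_smul', h1]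

theorem pos : ∃ s x θ w, ∃ c : F, w * w = 1 ∧ c ≠ 0 ∧ cj (u s 0 x θ) α w • e 0 = c • (e 3 : V F) := by
  obtain ⟨w, hw, hwM⟩ := H.exists_w
  obtain ⟨t, ⟨s, t', x, θ, ht⟩, h⟩ := H.orbit hL hw hwM (e_ne 0) (by simp [e_apply])
  rw [B_e, ht, u_smul] at h
  change (α w • (e 0 : V F)) 3 ≠ 0 at h
  obtain ⟨y, hy⟩ : ∃ y, y = α w • (e 0 : V F) := ⟨_, rfl⟩
  rw [← hy] at h
  refine ⟨y 2 / y 3, y 1 / y 3, y 0 / y 3, w, y 3, hw, h, ?_⟩
  rw [cj_apply, mul_smul, mul_smul, Pp_smul (Pp.inv_mem (u_Pp ..)), u_inv,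
    show (u (y 2 / y 3) 0 (y 1 / y 3 + y 2 / y 3 * 0) (y 0 / y 3)).m 0 0 = 1 from rfl, one_smul,
    ← hy, u_smul]
  apply vext <;> simp [e_apply, h, CharTwo.add_self_eq_zero]
  grind

end Std

end Cfsg.Agent.H9.S4
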