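import Cfsg.Agent.H9.S4.E1

/-! Simple subgroups of `Sp₄(2^n)` without root elements: abelian Sylow subgroups. -/

set_option autoImplicit false
set_option linter.unusedSectionVars false
open Matrix Cfsg.Lie Cfsg.Agent.H4.Suz Cfsg.Agent.H8.M3

namespace Cfsg.Agent.H9.S4

variable {F : Type*} [Field F] [CharP F 2] [Finite F] {Γ : Type*} [Group Γ] [Finite Γ]
  {α : Γ →* G F}

/-- two-point position -/
structure Pos (α : Γ →* G F) (z w : Γ) (c : F) : Prop where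
  std : Std α z
  nl : NoL α
  ww : w * w = 1
  c0 : c ≠ 0
  we : α w • (e 0 : V F) = c • e 3

theorem Std.exists_pos {z : Γ} (H : Std α z) (hL : NoL α) :
    ∃ s x θ w c, Pos (cj (u s 0 x θ) α) z w c := by
  obtain ⟨s, x, θ, w, c, h1, h2, h3⟩ := H.pos hL
  exact ⟨s, x, θ, w, c, H.cju .., hL.cju _ _ _ _, h1, h2, h3⟩

/-- the two-point stabiliser -/
def DD (α : Γ →* G F) (w : Γ) : Subgroup Γ :=
  Pp.comap α ⊓ (Pp.comap α).comap (MulAut.conj w).toMonoidHom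

namespace Pos
variable {z w : Γ} {c : F} (H : Pos α z w c)
include H

theorem zh : ZH (Pp.comap α) (U0.comap α) (Ep α) z := H.std.zh H.nl

theorem wP : α w ∉ Pp := fun h => H.c0 (by
  simpa [smul_e, e_apply, h.2.2] using (congrFun H.we 3).symm)

theorem mem_DD {d : Γ} : d ∈ DD α w ↔ α d ∈ Pp ∧ α (w * d * w) ∈ Pp := by
  nth_rewrite 3 [← inv_self H.ww]
  rfl

theorem we3 : α w • (e 3 : V F) = c⁻¹ • e 0 := by
  rw [eq_inv_smul_iff₀ H.c0, ← smul_smul', ← H.we, ← mul_smul, ← map_mul, H.ww, map_one, one_smul]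

theorem lev {d : Γ} (hd : d ∈ DD α w) : (α d).m 0 3 = 0 ∧ (α d).m 1 3 = 0 ∧ (α d).m 2 3 = 0 ∧
    (α d).m 0 1 = 0 ∧ (α d).m 0 2 = 0 := by
  obtain ⟨h1, h2⟩ := H.mem_DD.1 hd
  have h3 := congrArg (α w • ·) (Pp_smul h2)
  simp only [map_mul, mul_smul, smul_smul', H.we] at h3
  rw [← mul_smul (α w), ← map_mul, H.ww, map_one, one_smul] at h3
  have e0 := congrFun h3 0
  have e1 := congrFun h3 1
  have e2 := congrFun h3 2
  simp [smul_e, e_apply, H.c0] at e0 e1 e2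
  have o1 : _ = (0 : F) := (α d).orth 1 3
  have o2 : _ = (0 : F) := (α d).orth 2 3
  have := (row3 h1.1 h1.2.1 h1.2.2).1
  grind

theorem four {d : Γ} (hd : d ∈ DD α w) (h : d ^ 4 = 1) : d = 1 :=
  H.zh.se.four H.ww H.wP (H.mem_DD.1 hd).1 (H.mem_DD.1 hd).2 h

theorem inverts {d : Γ} (hd : d ∈ DD α w) : w * d * w = d⁻¹ :=
  H.zh.inverts H.ww H.wP (H.mem_DD.1 hd).1 (H.mem_DD.1 hd).2

theorem trans {i j : Γ} (hi : i ∈ Ep α) (hi1 : i ≠ 1) (hj : j ∈ Ep α) (hj1 : j ≠ 1) :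
    ∃ k ∈ DD α w, k * i * k⁻¹ = j := by
  obtain ⟨k, h1, h2, h3⟩ := H.zh.trans H.ww H.wP hi hi1 hj hj1
  exact ⟨k, H.mem_DD.2 ⟨h1, h2⟩, h3⟩

theorem odd : Odd (Nat.card (DD α w)) := by
  rw [← Nat.not_even_iff_odd, even_iff_two_dvd]
  intro h
  obtain ⟨⟨d, hd⟩, h1⟩ := exists_prime_orderOf_dvd_card' 2 h
  rw [Subgroup.orderOf_mk] at h1
  obtain rfl := H.four hd (by rw [show 4 = 2 * 2 from rfl, pow_mul, ← h1, pow_orderOf_eq_one]; simp)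
  simp at h1

theorem exists_root {d : Γ} (hd : d ∈ DD α w) : ∃ r ∈ DD α w, r * r = d := by
  obtain ⟨k, hk⟩ := H.odd
  refine ⟨d ^ (k + 1), pow_mem hd _, ?_⟩
  have : d ^ (2 * k + 1) = 1 := by
    rw [← hk]; exact congrArg Subtype.val (pow_card_eq_one' (x := (⟨d, hd⟩ : DD α w)))
  rw [← pow_add, show k + 1 + (k + 1) = 2 * k + 1 + 1 by ring, pow_succ, this, one_mul]

theorem exists_s : ∃ t, α t ∈ U0 ∧ (α t).m 0 1 ≠ 0 := by
  obtain ⟨t, ⟨s, t', x, θ, ht⟩, h⟩ := H.std.orbit H.nl H.ww H.wP (e_ne 1) (by simp [e_apply])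
  refine ⟨t, ht ▸ u_mem .., fun h1 => h ?_⟩
  have : s = 0 := by simpa [ht, u_m] using h1
  simp [H.we, smul_smul', B_e, ht, u_smul, e_apply, this, Fin.rev]

theorem not_abel : ∃ γ, α γ ∈ U0 ∧ γ ∉ Ep α := by
  by_contra! hT
  obtain ⟨Q1, hQ1, h1⟩ := avg (T := ⊥) (by rw [Subgroup.index_bot]; exact H.odd)
    (α.comp (DD α w).subtype) isQ0 (fun γ hγ v => by
      rw [Subgroup.mem_bot] at hγ
      rw [hγ, map_one, one_smul])
  obtain ⟨c1, hc1⟩ : ∃ c1, c1 = Q1 (e 1) := ⟨_, rfl⟩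
  obtain ⟨c2, hc2⟩ : ∃ c2, c2 = Q1 (e 2) := ⟨_, rfl⟩
  let κ : Γ → F := fun γ => (α γ).m 0 3 + (α γ).m 0 2 * (α γ).m 0 1 + c1 * (α γ).m 0 2 ^ 2 +
    c2 * (α γ).m 0 1 ^ 2
  let ω : Γ → Γ → F := fun γ δ => (α γ).m 0 1 * (α δ).m 0 2 + (α γ).m 0 2 * (α δ).m 0 1
  have κm : ∀ a ∈ Ep α, ∀ b ∈ Ep α, κ (a * b) = κ a + κ b := by
    rintro a ⟨s, x, θ, h⟩ b ⟨s', x', θ', h'⟩
    simp [κ, h, h', u_mul, u_m]; grind
  have ωm : ∀ a ∈ Ep α, ∀ b ∈ Ep α, ∀ a' ∈ Ep α, ∀ b' ∈ Ep α,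
      ω (a * b) (a' * b') = ω a a' + ω a b' + ω b a' + ω b b' := by
    rintro a ⟨s, x, θ, h⟩ b ⟨s', x', θ', h'⟩ a' ⟨s2, x2, θ2, h2⟩ b' ⟨s3, x3, θ3, h3⟩
    simp [ω, h, h', h2, h3, u_mul, u_m]; grind
  have κc : ∀ d ∈ DD α w, ∀ a ∈ Ep α, κ (d * a * d⁻¹) = (α d).m 0 0 ^ 2 * κ a := by
    rintro d hd a ⟨s, x, θ, h⟩
    have h2 := h1 ⟨d, hd⟩ ![0, x, s, 0]
    obtain ⟨l1, l2, l3, l4, l5⟩ := H.lev hd
    obtain ⟨-, l6, l7, -⟩ := row3 hd.1.1 hd.1.2.1 hd.1.2.2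
    rw [hQ1.eq, hQ1.eq ![0, x, s, 0], ← hc1, ← hc2] at h2
    simp [sm, l4, l5, l6, l7] at h2
    simp only [κ, map_mul, map_inv, h, conj_Qp hd.1]
    simp [u_m]
    grind
  have ωc : ∀ d ∈ DD α w, ∀ a ∈ Ep α, ∀ b ∈ Ep α,
      ω (d * a * d⁻¹) (d * b * d⁻¹) = (α d).m 0 0 ^ 2 * ω a b := by
    rintro d hd a ⟨s, x, θ, h⟩ b ⟨s', x', θ', h'⟩
    obtain ⟨-, -, -, l8⟩ := row3 hd.1.1 hd.1.2.1 hd.1.2.2
    simp only [ω, map_mul, map_inv, h, h', conj_Qp hd.1]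
    simp [u_m]
    grind
  obtain ⟨e1, he1, hκ⟩ : ∃ e1 ∈ Ep α, κ e1 ≠ 0 := by
    by_contra! h0
    obtain ⟨Q, hQ, h2⟩ := avg H.std.odd α
      (Q := fun v => v 0 * v 3 + v 1 * v 2 + c1 * v 1 ^ 2 + c2 * v 2 ^ 2)
      ⟨fun c v => by simp; ring, fun u v => by simp [B_apply]; grind⟩ (fun γ hγ v => by
        obtain ⟨s, x, θ, h⟩ := hT γ hγ
        have := h0 γ ⟨s, x, θ, h⟩
        simp [κ, h, u_m] at this
        simp [h, u_smul]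
        grind)
    exact H.std.good.noQ Q hQ h2
  have κ0 : ∀ a ∈ Ep α, κ a = 0 → a = 1 := fun a ha h => by
    by_contra h2
    obtain ⟨k, hk, rfl⟩ := H.trans he1 (by rintro rfl; simp [κ, G.one_m] at hκ) ha h2
    rw [κc k hk e1 he1] at h
    exact mul_ne_zero (pow_ne_zero 2 (Pp_ne hk.1)) hκ h
  have κi : ∀ a ∈ Ep α, ∀ b ∈ Ep α, κ a = κ b → a = b := fun a ha b hb h => by
    have := κ0 _ (mul_mem ha hb) (by rw [κm a ha b hb, h, CharTwo.add_self_eq_zero])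
    rw [← inv_self (H.std.good.Ep_sq hb), mul_inv_eq_one] at this
    exact this
  have zE := H.zh.zE
  have cE : ∀ d ∈ DD α w, ∀ a ∈ Ep α, d * a * d⁻¹ ∈ Ep α := fun d hd a ha => Ep_conj hd.1 ha
  have ω0 : ∀ a, ω a a = 0 := fun a => by simp only [ω]; grind
  obtain ⟨t, ht, hs⟩ := H.exists_s
  have tE := hT t ht
  have hω : ω z t = 0 := by
    obtain ⟨d, hd, rfl⟩ := H.trans zE H.std.z1 tE (by rintro rfl; simp [G.one_m] at hs)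
    obtain ⟨r, hr, rfl⟩ := H.exists_root hd
    by_cases h2 : r * z * r⁻¹ * z = 1
    · have h3 : r * z = z * r := by
        rw [← mul_inv_eq_iff_eq_mul, eq_inv_of_mul_eq_one_left h2, inv_self H.std.sq]
      obtain rfl := H.four hr (H.zh.four ((H.std.cz r).2 h3))
      simpa using ω0 z
    obtain ⟨d, hd, h3⟩ := H.trans zE H.std.z1 (mul_mem (cE r hr z zE) zE) h2
    have h4 : (α d).m 0 0 ^ 2 = (α r).m 0 0 ^ 2 + 1 := by
      have := congrArg κ h3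
      rw [κc d hd z zE, κm _ (cE r hr z zE) z zE, κc r hr z zE] at this
      apply mul_right_cancel₀ (fun h => H.std.z1 (κ0 z zE h))
      rw [this]; ring
    have yE := cE r hr z zE
    have h5 : d * (r * z * r⁻¹) * d⁻¹ = r * (r * z * r⁻¹) * r⁻¹ * (r * z * r⁻¹) :=
      κi _ (cE d hd _ yE) _ (mul_mem (cE r hr _ yE) yE) (by
        rw [κc d hd _ yE, κm _ (cE r hr _ yE) _ yE, κc r hr _ yE, h4]; ring)
    have h6 := ωc d hd z zE _ yE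
    rw [h3, h5, ωm _ yE _ zE _ (cE r hr _ yE) _ yE, ωc r hr z zE _ yE, ω0, h4] at h6
    rw [show r * r * z * (r * r)⁻¹ = r * (r * z * r⁻¹) * r⁻¹ by group]
    grind
  obtain ⟨x0, θ0, hx, -, hz⟩ := H.std.hz'
  simp [ω, hz, u_m, hx, hs] at hω

end Pos

end Cfsg.Agent.H9.S4
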