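import Cfsg.Agent.H9.S4.E2

/-! Simple subgroups of `Sp₄(2^n)` without root elements: the Suzuki case, normalisation. -/

set_option autoImplicit false
set_option linter.unusedSectionVars false
open Matrix Cfsg.Lie Cfsg.Agent.H4.Suz Cfsg.Agent.H8.M3

namespace Cfsg.Agent.H9.S4

variable {F : Type*} [Field F] [CharP F 2] [Finite F] {Γ : Type*} [Group Γ] [Finite Γ]
  {α : Γ →* G F}

/-- no involutions of the point radical outside the centre -/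
def NoP (α : Γ →* G F) : Prop := ∀ γ s x θ, α γ = u s 0 x θ → s = 0

theorem h_inv (l m : F) (hl : l ≠ 0) (hm : m ≠ 0) :
    (h l m hl hm)⁻¹ = h l⁻¹ m⁻¹ (inv_ne_zero hl) (inv_ne_zero hm) := by
  rw [inv_eq_iff_mul_eq_one]
  apply G.ext
  apply ext4 <;> simp [G.mul_m, h_m, mul4, G.one_m, hl, hm]

theorem cj_eq {g : G F} {γ : Γ} {A : G F} (h : cj g α γ = A) : α γ = g⁻¹ * A * g⁻¹⁻¹ := by
  rw [← h, cj_apply]; group

theorem NoL.cjh (hL : NoL α) (l m : F) (hl : l ≠ 0) (hm : m ≠ 0) : NoL (cj (h l m hl hm) α) := by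
  intro γ t x θ h1
  have := cj_eq h1
  rw [h_inv l, h_conj, mul_zero] at this
  simpa [hm] using hL _ _ _ _ this

theorem NoP.cjh (hL : NoP α) (l m : F) (hl : l ≠ 0) (hm : m ≠ 0) : NoP (cj (h l m hl hm) α) := by
  intro γ t x θ h1
  have := cj_eq h1
  rw [h_inv l, h_conj, mul_zero] at this
  simpa [hm, hl] using hL _ _ _ _ this

theorem NoP.cju (hL : NoP α) (s t x θ : F) : NoP (cj (u s t x θ) α) := by
  intro γ t' x' θ' h1
  have := cj_eq h1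
  rw [u_inv s, u_conj] at this
  exact hL _ _ _ _ this

theorem lev_eq {A : G F} (hA : A ∈ Pp) (h1 : A.m 0 3 = 0) (h2 : A.m 1 3 = 0) (h3 : A.m 2 3 = 0)
    (h4 : A.m 0 1 = 0) (h5 : A.m 0 2 = 0) (h6 : A.m 2 1 = 0) : ∃ (l m : F) (hl : l ≠ 0) (hm : m ≠ 0),
    l = A.m 0 0 ∧ m = A.m 1 1 ∧ A = u 0 (A.m 1 2 * m) 0 0 * h l m hl hm := by
  obtain ⟨k0, k1, k2, k3⟩ := row3 hA.1 hA.2.1 hA.2.2
  have hm : A.m 1 1 ≠ 0 := by grind
  have hl := Pp_ne hA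
  refine ⟨_, _, hl, hm, rfl, rfl, G.ext ?_⟩
  apply ext4 <;> simp [G.mul_m, mul4, u_m, h_m, hA.1, hA.2.1, hA.2.2, *] <;> grind

namespace Pos
variable {z w : Γ} {c : F} (H : Pos α z w c)
include H

theorem conjT {d t : Γ} (hd : d ∈ DD α w) (ht : α t ∈ U0) : α (d * t * d⁻¹) ∈ U0 :=
  H.zh.normal H.ww H.wP hd.1 ht

theorem noP : NoP α := by
  obtain ⟨γ, ⟨s, t, x, θ, h⟩, h1⟩ := H.not_abel
  have ht : t ≠ 0 := by rintro rfl; exact h1 ⟨_, _, _, h⟩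
  have hs : s ≠ 0 := by rintro rfl; exact ht (H.nl _ _ _ _ h)
  have h2 : α (γ * γ) = u 0 0 (s * t) (s ^ 2 * t) := by rw [map_mul, h, u_sq]
  intro δ s' x' θ' h3
  by_cases h4 : δ = 1
  · rw [h4, map_one, eq_comm, u_eq_one] at h3; exact h3.1
  obtain ⟨d, hd, rfl⟩ := H.trans ⟨_, _, _, h2⟩ (fun h => by
    rw [h, map_one, eq_comm, u_eq_one] at h2; exact mul_ne_zero hs ht h2.2.2.1) ⟨_, _, _, h3⟩ h4
  obtain ⟨s1, t1, x1, θ1, h5⟩ := H.conjT hd (h ▸ u_mem ..)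
  rw [← conj_mul, map_mul, h5, u_sq] at h3
  exact (u_inj h3).1.symm

theorem d21 {d : Γ} (hd : d ∈ DD α w) : (α d).m 2 1 = 0 := by
  obtain ⟨x, θ, hx, -, h⟩ := H.std.hz'
  have := H.noP (d * z * d⁻¹) _ _ _ (by rw [map_mul, map_mul, map_inv, h, conj_Qp hd.1])
  simpa [hx, Pp_ne hd.1] using this

theorem d_eq {d : Γ} (hd : d ∈ DD α w) : ∃ (l m : F) (hl : l ≠ 0) (hm : m ≠ 0),
    l = (α d).m 0 0 ∧ m = (α d).m 1 1 ∧ α d = u 0 ((α d).m 1 2 * m) 0 0 * h l m hl hm := by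
  obtain ⟨l1, l2, l3, l4, l5⟩ := H.lev hd
  exact lev_eq hd.1 l1 l2 l3 l4 l5 (H.d21 hd)

theorem w_ent : (α w).m 0 0 = 0 ∧ (α w).m 1 0 = 0 ∧ (α w).m 2 0 = 0 ∧ (α w).m 3 0 = c ∧
    (α w).m 0 3 = c⁻¹ ∧ (α w).m 1 3 = 0 ∧ (α w).m 2 3 = 0 ∧ (α w).m 3 3 = 0 ∧
    (α w).m 0 1 = 0 ∧ (α w).m 0 2 = 0 ∧ (α w).m 3 1 = 0 ∧ (α w).m 3 2 = 0 := by
  have a := fun i => congrFun H.we i
  have b := fun i => congrFun H.we3 i
  have a0 := a 0; have a1 := a 1; have a2 := a 2; have a3 := a 3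
  have b0 := b 0; have b1 := b 1; have b2 := b 2; have b3 := b 3
  simp [smul_e, e_apply] at a0 a1 a2 a3 b0 b1 b2 b3
  have o1 : _ = (0 : F) := (α w).orth 0 1
  have o2 : _ = (0 : F) := (α w).orth 0 2
  have o3 : _ = (0 : F) := (α w).orth 1 3
  have o4 : _ = (0 : F) := (α w).orth 2 3
  simp [H.c0, a0, a1, a2, a3, b0, b1, b2, b3] at o1 o2 o3 o4
  simp [*]

theorem exists_d : ∃ d ∈ DD α w, d ≠ 1 := by
  obtain ⟨e, he, h1, h2⟩ := H.zh.big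
  obtain ⟨d, hd, rfl⟩ := H.trans H.zh.zE H.std.z1 he h1
  exact ⟨d, hd, by rintro rfl; simp at h2⟩

theorem w21 : (α w).m 2 1 ≠ 0 := by
  intro h0
  obtain ⟨-, a1, -, -, -, -, -, -, a2, -, a3, -⟩ := H.w_ent
  have e1 : (α (w * w)).m 1 1 = 1 := by rw [H.ww, map_one]; rfl
  rw [map_mul, G.mul_apply] at e1
  have h11 : (α w).m 1 1 = 1 := by grind
  have we : α w • (e 1 : V F) = e 1 := by apply vext <;> simp [smul_e, e_apply, *]
  obtain ⟨d, hd, hd1⟩ := H.exists_d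
  obtain ⟨l, m, hl, hm, -, -, h1⟩ := H.d_eq hd
  generalize (α d).m 1 2 * m = t' at h1
  have de : α d • (e 1 : V F) = m • e 1 := by
    apply vext <;> simp [h1, smul_e, e_apply, G.mul_apply, u_m, h_m]
  have e2 : α (w * d * w * d) • (e 1 : V F) = e 1 := by rw [H.inverts hd]; simp
  simp only [map_mul, mul_smul, de, smul_smul', we] at e2
  have e3 : m * m = 1 := by simpa [e_apply] using congrFun e2 1
  obtain rfl : m = 1 := by grind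
  obtain ⟨γ, ⟨s, t, x, θ, h⟩, hs⟩ := H.exists_s
  have hs : s ≠ 0 := by simpa [h, u_m] using hs
  have := H.noP (d * γ * d⁻¹ * γ) _ _ _ (by
    rw [map_mul, map_mul, map_mul, map_inv, h1, h, _root_.mul_inv_rev,
      show ∀ a b c : G F, a * b * c * (b⁻¹ * a⁻¹) = a * (b * c * b⁻¹) * a⁻¹ from
        fun _ _ _ => by group, h_conj, u_conj, u_mul]
    exact u_congr rfl (by grind) rfl rfl)
  obtain rfl : l = 1 := by grind
  refine hd1 (H.four hd (H.zh.four (t := d) ⟨0, t', 0, 0, ?_⟩))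
  rw [h1]
  apply G.ext
  apply ext4 <;> simp [G.mul_m, mul4, u_m, h_m]

theorem cju (t : F) : Pos (cj (u 0 t 0 0) α) z w c := by
  refine ⟨H.std.cju .., H.nl.cju _ _ _ _, H.ww, H.c0, ?_⟩
  rw [cj_apply, mul_smul, mul_smul, u_inv, show u 0 t (0 + 0 * t) 0 • (e 0 : V F) = e 0 by
    rw [u_smul]; apply vext <;> simp [e_apply], H.we, u_smul]
  apply vext <;> simp [e_apply]

theorem cjh (l m : F) (hl : l ≠ 0) (hm : m ≠ 0) :
    Pos (cj (h l m hl hm) α) z w (l⁻¹ ^ 2 * c) := by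
  refine ⟨H.std.cjh .., H.nl.cjh _ _ _ _, H.ww, by simp [hl, H.c0], ?_⟩
  rw [cj_apply, mul_smul, mul_smul, h_inv, show h l⁻¹ m⁻¹ _ _ • (e 0 : V F) = l⁻¹ • e 0 by
    apply vext <;> simp [smul_e, e_apply, h_m], smul_smul', H.we]
  apply vext <;> simp [sm, e_apply, h_m]
  ring

end Pos

/-- normalised Suzuki position -/
structure Pos2 (α : Γ →* G F) (z w : Γ) (c : F) (γ : Γ) (x θ : F) : Prop where
  pos : Pos α z w c
  w11 : (α w).m 1 1 = 0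
  g0 : α γ = u 1 1 x θ

theorem Pos.exists_pos2 {z w : Γ} {c : F} (H : Pos α z w c) :
    ∃ (β : Γ →* G F), ∃ c γ x θ, Pos2 β z w c γ x θ := by
  have H1 := H.cju ((α w).m 1 1 / (α w).m 2 1)
  have e1 : (cj (u 0 ((α w).m 1 1 / (α w).m 2 1) 0 0) α w).m 1 1 = 0 := by
    have := H.w21
    simp [cj_apply, u_inv, G.mul_apply, u_m, this, CharTwo.add_self_eq_zero]
  generalize u 0 ((α w).m 1 1 / (α w).m 2 1) 0 0 = g at H1 e1
  obtain ⟨γ, ⟨s, t, x, θ, h1⟩, h2⟩ := H1.not_abel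
  have ht : t ≠ 0 := by rintro rfl; exact h2 ⟨_, _, _, h1⟩
  have hs : s ≠ 0 := by rintro rfl; exact ht (H1.nl _ _ _ _ h1)
  obtain ⟨m, hm⟩ := exists_sq t⁻¹
  have m0 : m ≠ 0 := by rintro rfl; simp [eq_comm, ht] at hm
  refine ⟨_, _, γ, m / s * m * x, (m / s) ^ 2 * θ, H1.cjh (m / s) m (div_ne_zero m0 hs) m0, ?_, ?_⟩
  · rw [cj_apply]
    simp [h_inv, G.mul_apply, h_m, e1]
  · rw [cj_apply, h1, h_conj]
    exact u_congr (by field_simp) (by rw [hm]; field_simp) rfl rfl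

end Cfsg.Agent.H9.S4
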