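import Cfsg.Agent.H4.SzGroup

/-! Field lemmas for the recognition of the Suzuki groups. -/

set_option autoImplicit false
open Cfsg.Agent.H4.Suz Polynomial

namespace Cfsg.Agent.H9.S4

variable {F : Type*} [Field F]

theorem mem_of_pow_card [Finite F] (k : Subfield F) {x : F} (h : x ^ Nat.card k = x) : x ∈ k := by
  classical
  have := Fintype.ofFinite k
  have h1 : 1 < Nat.card k := Finite.one_lt_card
  have hp := FiniteField.X_pow_card_sub_X_ne_zero F h1
  have hsub : Finset.univ.image (Subtype.val : k → F) ⊆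
      (X ^ Nat.card k - X : F[X]).roots.toFinset := by
    intro y hy
    obtain ⟨y, -, rfl⟩ := Finset.mem_image.1 hy
    have := congrArg Subtype.val (FiniteField.pow_card y)
    rw [Multiset.mem_toFinset, mem_roots hp, IsRoot.def, eval_sub, eval_pow, eval_X,
      Nat.card_eq_fintype_card, sub_eq_zero]
    simpa using this
  have := Finset.eq_of_subset_of_card_le hsub (by
    rw [Finset.card_image_of_injective _ Subtype.val_injective, Finset.card_univ,
      ← Nat.card_eq_fintype_card]
    refine (Multiset.toFinset_card_le _).trans ((card_roots' _).trans ?_)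
    rw [FiniteField.X_pow_card_sub_X_natDegree_eq F h1])
  have h2 : x ∈ Finset.univ.image (Subtype.val : k → F) := by
    rw [this, Multiset.mem_toFinset, mem_roots hp, IsRoot.def, eval_sub, eval_pow, eval_X, h,
      sub_self]
  obtain ⟨y, -, rfl⟩ := Finset.mem_image.1 h2
  exact y.2

theorem hom_mem [Finite F] {k : Subfield F} (ρ : k →+* F) (x : k) : ρ x ∈ k := by
  have := Fintype.ofFinite k
  exact mem_of_pow_card k (by rw [← map_pow, Nat.card_eq_fintype_card, FiniteField.pow_card])

theorem four_chars [CharP F 2] {M : Type*} [Monoid M] (f1 f2 f3 f4 : M →* F)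
    (h : ∀ x, f1 x + f2 x + f3 x + f4 x = 0) :
    (f1 = f2 ∧ f3 = f4) ∨ (f1 = f3 ∧ f2 = f4) ∨ (f1 = f4 ∧ f2 = f3) := by
  classical
  have h0 := linearIndependent_iff.1 (linearIndependent_monoidHom M F)
    (Finsupp.single f1 1 + Finsupp.single f2 1 + Finsupp.single f3 1 + Finsupp.single f4 1)
    (by ext x; simpa using h x)
  have h1 := DFunLike.congr_fun h0 f1
  by_cases e2 : f1 = f2
  · exact Or.inl ⟨e2, MonoidHom.ext fun x => by have := h x; rw [e2] at this; grind⟩
  by_cases e3 : f1 = f3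
  · exact Or.inr (Or.inl ⟨e3, MonoidHom.ext fun x => by have := h x; rw [e3] at this; grind⟩)
  by_cases e4 : f1 = f4
  · exact Or.inr (Or.inr ⟨e4, MonoidHom.ext fun x => by have := h x; rw [e4] at this; grind⟩)
  simp [e2, e3, e4] at h1

theorem tits [CharP F 2] [Fintype F] (φ : F →+* F) (hφ : ∀ x, φ (φ x) = x ^ 2)
    (big : ∃ c : F, c ≠ 0 ∧ c ≠ 1) :
    ∃ m, 1 ≤ m ∧ Fintype.card F = 2 ^ (2 * m + 1) ∧ φ = phi F m := by
  let _ := ZMod.algebra F 2
  let ψ : F →ₐ[ZMod 2] F := { φ with
    commutes' := fun c => DFunLike.congr_fun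
      (Subsingleton.elim (φ.comp (algebraMap (ZMod 2) F)) (algebraMap (ZMod 2) F)) c }
  obtain ⟨⟨i, hi⟩, h⟩ := (FiniteField.bijective_frobeniusAlgHom_pow (ZMod 2) F).2 ψ
  have h1 : ∀ (j : ℕ) (x : F), (FiniteField.frobeniusAlgHom (ZMod 2) F ^ j) x = x ^ 2 ^ j :=
    fun j x => by rw [AlgHom.coe_pow, FiniteField.coe_frobeniusAlgHom, pow_iterate, ZMod.card]
  have h2 : ∀ x, φ x = x ^ 2 ^ i := fun x => (DFunLike.congr_fun h x).symm.trans (h1 i x)
  have hc : Fintype.card F = 2 ^ Module.finrank (ZMod 2) F := by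
    rw [Module.card_eq_pow_finrank (K := ZMod 2), ZMod.card]
  have ho := FiniteField.orderOf_frobeniusAlgHom (ZMod 2) F
  generalize Module.finrank (ZMod 2) F = n at *
  have hn : 2 ≤ n := by
    obtain ⟨c, c0, c1⟩ := big
    have : 2 < Fintype.card F := Fintype.two_lt_card_iff.2 ⟨c, 0, 1, c0, c1, zero_ne_one⟩
    by_contra! h
    rw [hc] at this
    interval_cases n <;> omega
  have i0 : i ≠ 0 := by
    rintro rfl
    obtain ⟨c, c0, c1⟩ := big
    have := hφ c
    simp only [h2, pow_zero, pow_one] at this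
    exact c1 (mul_left_cancel₀ c0 (by rw [← sq, ← this, mul_one]))
  have h3 : n ∣ 2 * i - 1 := by
    rw [← ho]
    apply orderOf_dvd_of_pow_eq_one
    ext x
    apply frobenius_inj F 2
    rw [h1, frobenius_def, frobenius_def, ← pow_mul, ← pow_succ, AlgHom.one_apply, ← hφ, h2, h2,
      ← pow_mul, ← pow_add]
    congr 2
    omega
  obtain ⟨k, hk⟩ := h3
  have k1 : k = 1 := by
    rcases k with _ | _ | k
    · omega
    · rfl
    · have : n * (k + 1 + 1) = 2 * n + n * k := by ring
      omega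
  subst k1
  refine ⟨i - 1, by omega, by rw [hc]; congr 1; omega, RingHom.ext fun x => ?_⟩
  rw [h2, phi, iterateFrobenius_def, Nat.sub_add_cancel (by omega)]

theorem model_equiv [CharP F 2] {φ : F →+* F} {G G' : Type*} [Group G] [Group G']
    (M : Model G φ) (M' : Model G' φ) : Nonempty (G ≃* G') := by
  have : MonoidHom.mrange M.α = MonoidHom.mrange M'.α := by
    ext A
    exact ⟨by rintro ⟨g, rfl⟩; exact M'.surj _ (M.mem g),
      by rintro ⟨g, rfl⟩; exact M.surj _ (M'.mem g)⟩
  exact ⟨(MulEquiv.ofLeftInverse' _ (Function.leftInverse_invFun M.inj)).trans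
    ((MulEquiv.submonoidCongr this).trans
      (MulEquiv.ofLeftInverse' _ (Function.leftInverse_invFun M'.inj)).symm)⟩

end Cfsg.Agent.H9.S4
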