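import Cfsg.Agent.H9.S4.E3
import Cfsg.Agent.H9.S4.Fl

/-! Simple subgroups of `Sp₄(2^n)` without root elements: the Suzuki case, identification. -/

set_option autoImplicit false
set_option linter.unusedSectionVars false
open Matrix Cfsg.Lie Cfsg.Agent.H4.Suz Cfsg.Agent.H8.M3

namespace Cfsg.Agent.H9.S4

variable {F : Type*} [Field F] [CharP F 2] [Finite F] {Γ : Type*} [Group Γ] [Finite Γ]
  {α : Γ →* G F}

/-- image of the Sylow subgroup modulo the centre -/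
def In (α : Γ →* G F) (s t : F) : Prop := ∃ γ x θ, α γ = u s t x θ

/-- the centre of the Sylow subgroup -/
def Zs (α : Γ →* G F) (x θ : F) : Prop := ∃ γ, α γ = u 0 0 x θ

theorem In.zero : In α 0 0 := ⟨1, 0, 0, by rw [map_one, u_zero]⟩
theorem Zs.zero : Zs α 0 0 := ⟨1, by rw [map_one, u_zero]⟩

theorem In.add {s t s' t' : F} (h : In α s t) (h' : In α s' t') : In α (s + s') (t + t') := by
  obtain ⟨γ, x, θ, h⟩ := h
  obtain ⟨γ', x', θ', h'⟩ := h'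
  exact ⟨γ * γ', _, _, by rw [map_mul, h, h', u_mul]⟩

theorem Zs.add {s t s' t' : F} (h : Zs α s t) (h' : Zs α s' t') : Zs α (s + s') (t + t') := by
  obtain ⟨γ, h⟩ := h
  obtain ⟨γ', h'⟩ := h'
  exact ⟨γ * γ', by rw [map_mul, h, h', u_mul]; simp⟩

theorem In.sq {s t : F} (h : In α s t) : Zs α (s * t) (s ^ 2 * t) := by
  obtain ⟨γ, x, θ, h⟩ := h
  exact ⟨γ * γ, by rw [map_mul, h, u_sq]⟩

theorem In.tor {s t l m : F} {hl : l ≠ 0} {hm : m ≠ 0} {d : Γ} (hd : α d = h l m hl hm)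
    (H : In α s t) : In α (l / m * s) (m ^ 2 * t) := by
  obtain ⟨γ, x, θ, h1⟩ := H
  exact ⟨d * γ * d⁻¹, _, _, by rw [map_mul, map_mul, map_inv, hd, h1, h_conj]⟩

theorem Zs.tor {s t l m : F} {hl : l ≠ 0} {hm : m ≠ 0} {d : Γ} (hd : α d = h l m hl hm)
    (H : Zs α s t) : Zs α (l * m * s) (l ^ 2 * t) := by
  obtain ⟨γ, h1⟩ := H
  exact ⟨d * γ * d⁻¹, by rw [map_mul, map_mul, map_inv, hd, h1, h_conj]; simp⟩

/-- elements with entries in a subfield -/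
def Ent (α : Γ →* G F) (k : Subfield F) : Subgroup Γ where
  carrier := {γ | ∀ i j, (α γ).m i j ∈ k}
  mul_mem' := fun {a b} h1 h2 i j => by
    rw [map_mul, G.mul_apply]
    exact k.add_mem (k.add_mem (k.add_mem (k.mul_mem (h1 _ _) (h2 _ _))
      (k.mul_mem (h1 _ _) (h2 _ _))) (k.mul_mem (h1 _ _) (h2 _ _))) (k.mul_mem (h1 _ _) (h2 _ _))
  one_mem' := fun i j => by
    simp only [map_one, G.one_m, Matrix.one_apply]
    split_ifs
    exacts [k.one_mem, k.zero_mem]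
  inv_mem' := fun {a} h1 i j => by
    rw [map_inv, G.inv_apply]; exact h1 _ _

namespace Pos2
variable {z w γ0 : Γ} {c x0 θ0 : F} (H : Pos2 α z w c γ0 x0 θ0)
include H

theorem good : Good α := H.pos.std.good

theorem w_ent : (α w).m 2 1 * (α w).m 1 2 = 1 ∧ (α w).m 2 2 = 0 := by
  obtain ⟨-, -, a0, -, -, -, a1, -, a2, -, a3, -⟩ := H.pos.w_ent
  have o1 : _ = (1 : F) := (α w).orth 1 2
  have e1 : (α (w * w)).m 2 1 = 0 := by rw [H.pos.ww, map_one]; rfl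
  rw [map_mul, G.mul_apply] at e1
  simp [H.pos.w21, H.w11, a0, a1, a2, a3] at o1 e1
  exact ⟨o1, e1⟩

theorem d_eq {d : Γ} (hd : d ∈ DD α w) : ∃ (l m : F) (hl : l ≠ 0) (hm : m ≠ 0),
    α d = h l m hl hm := by
  obtain ⟨l, m, hl, hm, -, -, h1⟩ := H.pos.d_eq hd
  have h2 := H.pos.d21 (d := w * d * w) (H.pos.inverts hd ▸ inv_mem hd)
  obtain ⟨-, -, a0, -, -, -, a1, -, a2, -, a3, -⟩ := H.pos.w_ent
  simp [G.mul_apply, H.pos.w21, H.w11, H.w_ent.2, a0, a1, a2, a3] at h2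
  exact ⟨l, m, hl, hm, by rw [h1, h2, zero_mul, u_zero, one_mul]⟩

theorem in_uniq {s t t' : F} (h : In α s t) (h' : In α s t') : t = t' := by
  obtain ⟨γ, x, θ, h1⟩ := h.add h'
  rw [CharTwo.add_self_eq_zero] at h1
  have := H.pos.nl _ _ _ _ h1
  grind

theorem zs_uniq {s t t' : F} (h : Zs α s t) (h' : Zs α s t') : t = t' := by
  obtain ⟨γ, h1⟩ := h.add h'
  rw [CharTwo.add_self_eq_zero] at h1
  have := H.good.rf1 h1
  grind

theorem zs_uniq' {s s' t : F} (h : Zs α s t) (h' : Zs α s' t) : s = s' := by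
  obtain ⟨γ, h1⟩ := h.add h'
  rw [CharTwo.add_self_eq_zero] at h1
  have := H.good.rf2 h1
  grind

theorem in_one : In α 1 1 := ⟨γ0, _, _, H.g0⟩

theorem g0_sq : α (γ0 * γ0) = u 0 0 1 1 := by rw [map_mul, H.g0, u_sq]; simp

theorem zs_tor {x θ : F} (h1 : Zs α x θ) (hx : x ≠ 0) : ∃ d ∈ DD α w, ∃ (l m : F) (hl : l ≠ 0)
    (hm : m ≠ 0), α d = h l m hl hm ∧ x = l * m ∧ θ = l ^ 2 := by
  obtain ⟨γ, h1⟩ := h1
  obtain ⟨d, hd, rfl⟩ := H.pos.trans ⟨_, _, _, H.g0_sq⟩ (fun h => by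
    have := H.g0_sq
    rw [h, map_one, eq_comm, u_eq_one] at this
    exact one_ne_zero this.2.2.1) ⟨_, _, _, h1⟩ (fun h => by
    rw [h, map_one, eq_comm, u_eq_one] at h1
    exact hx h1.2.2.1)
  obtain ⟨l, m, hl, hm, h2⟩ := H.d_eq hd
  rw [map_mul, map_mul, map_inv, h2, H.g0_sq, h_conj] at h1
  exact ⟨d, hd, l, m, hl, hm, h2, by simpa using (u_inj h1).2.2.1.symm,
    by simpa using (u_inj h1).2.2.2.symm⟩

theorem in_tor {s t : F} (h1 : In α s t) (hs : s ≠ 0) : ∃ d ∈ DD α w, ∃ (l m : F) (hl : l ≠ 0)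
    (hm : m ≠ 0), α d = h l m hl hm ∧ s = l / m ∧ t = m ^ 2 := by
  have ht : t ≠ 0 := by
    rintro rfl
    obtain ⟨γ, x, θ, h1⟩ := h1
    exact hs (H.pos.noP _ _ _ _ h1)
  obtain ⟨d, hd, l, m, hl, hm, h2, h3, h4⟩ := H.zs_tor h1.sq (mul_ne_zero hs ht)
  have h5 : s = l / m := by
    rw [eq_div_iff hm]
    apply mul_left_cancel₀ hl
    grind
  refine ⟨d, hd, l, m, hl, hm, h2, h5, ?_⟩
  apply mul_left_cancel₀ hs
  rw [h3, h5]; field_simp

theorem in_mul {s t s' t' : F} (h : In α s t) (h' : In α s' t') : In α (s * s') (t * t') := by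
  by_cases hs : s = 0
  · subst hs
    rw [H.in_uniq h In.zero, zero_mul, zero_mul]; exact In.zero
  obtain ⟨d, -, l, m, hl, hm, h2, rfl, rfl⟩ := H.in_tor h hs
  exact In.tor h2 h'

/-- the field of definition -/
def k : Subfield F where
  carrier := {s | ∃ t, In α s t}
  mul_mem' := fun ⟨_, h⟩ ⟨_, h'⟩ => ⟨_, H.in_mul h h'⟩
  one_mem' := ⟨_, H.in_one⟩
  add_mem' := fun ⟨_, h⟩ ⟨_, h'⟩ => ⟨_, h.add h'⟩
  zero_mem' := ⟨_, In.zero⟩
  neg_mem' := fun h => by rwa [CharTwo.neg_eq]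
  inv_mem' := by
    rintro s ⟨t, h1⟩
    by_cases hs : s = 0
    · rw [hs, _root_.inv_zero]; exact ⟨_, In.zero⟩
    obtain ⟨d, -, l, m, hl, hm, h2, rfl, rfl⟩ := H.in_tor h1 hs
    have := In.tor (d := d⁻¹) (by rw [map_inv, h2, h_inv]) H.in_one
    exact ⟨_, by convert this using 1; field_simp⟩

theorem exists_rho : ∃ ρ : H.k →+* F, ∀ s : H.k, In α s (ρ s) :=
  ⟨{ toFun s := s.2.choose
     map_one' := H.in_uniq (1 : H.k).2.choose_spec H.in_one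
     map_mul' a b := H.in_uniq (a * b).2.choose_spec (H.in_mul a.2.choose_spec b.2.choose_spec)
     map_zero' := H.in_uniq (0 : H.k).2.choose_spec In.zero
     map_add' a b := H.in_uniq (a + b).2.choose_spec (a.2.choose_spec.add b.2.choose_spec) },
    fun s => s.2.choose_spec⟩

theorem zs_mem {x θ : F} (h1 : Zs α x θ) : x ∈ H.k := by
  by_cases hx : x = 0
  · exact hx ▸ zero_mem _
  obtain ⟨ρ, hρ⟩ := H.exists_rho
  obtain ⟨d, -, l, m, hl, hm, h2, rfl, -⟩ := H.zs_tor h1 hx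
  have h3 := In.tor h2 H.in_one
  have h4 := H.in_uniq h3 (hρ ⟨_, _, h3⟩)
  have h5 := hom_mem ρ ⟨_, _, h3⟩
  rw [← h4] at h5
  have := H.k.mul_mem (show _ ∈ H.k from ⟨_, h3⟩) h5
  convert this using 1
  field_simp

theorem exists_s : ∃ s ∈ H.k, s ≠ 0 ∧ s ≠ 1 := by
  obtain ⟨d, hd, h1⟩ := H.pos.exists_d
  obtain ⟨l, m, hl, hm, h2⟩ := H.d_eq hd
  have h3 := In.tor h2 H.in_one
  refine ⟨_, ⟨_, h3⟩, by simp [hl, hm], fun h4 => h1 (H.good.inj ?_)⟩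
  rw [h4] at h3
  have h5 := H.in_uniq h3 H.in_one
  obtain rfl : m = 1 := by grind
  obtain rfl : l = 1 := by simpa using h4
  rw [h2, map_one]
  apply G.ext
  apply ext4 <;> simp [h_m, G.one_m]

theorem exists_tits : ∃ ρ : H.k →+* H.k, (∀ s : H.k, In α s (ρ s)) ∧ (∀ s : H.k, Zs α s (ρ s)) ∧
    ∀ s, ρ (ρ s) = s ^ 2 := by
  obtain ⟨ρ0, hρ0⟩ := H.exists_rho
  let ρ : H.k →+* H.k := ρ0.codRestrict H.k (hom_mem ρ0)
  have hρ : ∀ s : H.k, In α s (ρ s) := hρ0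
  clear_value ρ
  have hinj : Function.Injective fun s : H.k => s * ρ s := by
    intro s s' h
    have h : (s : F) * ρ s = s' * ρ s' := congrArg Subtype.val h
    have h1 := H.zs_uniq (hρ s).sq (h ▸ (hρ s').sq)
    by_cases hs : s = 0
    · subst hs
      simp only [ZeroMemClass.coe_zero, zero_mul, zero_eq_mul, ZeroMemClass.coe_eq_zero,
        map_eq_zero, or_self] at h
      exact h.symm
    · apply Subtype.ext
      apply mul_right_cancel₀ (b := (s : F) * ρ s) (by simp [hs])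
      grind
  have hz : ∀ y : H.k, ∃ θ, Zs α y θ := fun y => by
    obtain ⟨s, rfl⟩ := Finite.surjective_of_injective hinj y
    exact ⟨_, (hρ s).sq⟩
  choose σ hσ using hz
  have σa : ∀ a b, σ (a + b) = σ a + σ b := fun a b => H.zs_uniq (hσ _) ((hσ a).add (hσ b))
  let σ' : H.k →* F :=
    { toFun := σ
      map_one' := H.zs_uniq (hσ 1) ⟨_, H.g0_sq⟩
      map_mul' a b := by
        by_cases ha : a = 0
        · subst ha
          rw [zero_mul, H.zs_uniq (hσ 0) Zs.zero, zero_mul]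
        obtain ⟨d, -, l, m, hl, hm, h2, h3, h4⟩ := H.zs_tor (hσ a) (by simpa using ha)
        refine H.zs_uniq (hσ _) ?_
        rw [h4, MulMemClass.coe_mul, h3]
        exact Zs.tor h2 (hσ b) }
  have rel : ∀ s : H.k, σ s + σ (ρ s) + (s : F) ^ 2 + ρ s = 0 := fun s => by
    have h1 := H.zs_uniq (hσ (s + ρ s)) (t' := (s : F) ^ 2 + ρ s) (by
      have := (((hρ s).add H.in_one).sq.add (hρ s).sq).add ⟨_, H.g0_sq⟩
      convert this using 1
      · push_cast; grind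
      · grind)
    rw [σa] at h1
    grind
  obtain ⟨s0, hs0, s00, s01⟩ := H.exists_s
  have hs : s0 ^ 2 ≠ s0 := fun h => s01 (mul_left_cancel₀ s00 (by rw [← sq, h, mul_one]))
  rcases four_chars σ' (σ'.comp ρ.toMonoidHom) ((powMonoidHom 2).comp H.k.subtype.toMonoidHom)
    (H.k.subtype.toMonoidHom.comp ρ.toMonoidHom) rel with ⟨h1, h2⟩ | ⟨h1, h2⟩ | ⟨h1, h2⟩
  · have e1 : σ ⟨s0, hs0⟩ = σ (ρ ⟨s0, hs0⟩) := DFunLike.congr_fun h1 ⟨s0, hs0⟩
    have e2 : s0 ^ 2 = ρ ⟨s0, hs0⟩ := DFunLike.congr_fun h2 ⟨s0, hs0⟩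
    exact absurd (e2.trans (H.zs_uniq' (hσ _) (e1 ▸ hσ ⟨s0, hs0⟩))) hs
  · have e1 : σ (ρ ⟨s0, hs0⟩) = (ρ ⟨s0, hs0⟩ : F) ^ 2 := DFunLike.congr_fun h1 (ρ ⟨s0, hs0⟩)
    have e2 : σ (ρ ⟨s0, hs0⟩) = ρ ⟨s0, hs0⟩ := DFunLike.congr_fun h2 ⟨s0, hs0⟩
    have e3 : ρ (⟨s0, hs0⟩ ^ 2) = ρ ⟨s0, hs0⟩ := Subtype.ext (by
      rw [map_pow]; exact e1.symm.trans e2)
    exact absurd (congrArg Subtype.val (ρ.injective e3)) hs
  · have e1 : ∀ s, σ s = ρ s := DFunLike.congr_fun h1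
    refine ⟨ρ, hρ, fun s => e1 s ▸ hσ s, fun s => Subtype.ext ?_⟩
    rw [← e1]
    exact DFunLike.congr_fun h2 s

theorem key {s t : F} (h1 : In α s t) (hs : s ≠ 0) :
    ∃ γ, α γ = u s t (s * t * x0) (s ^ 2 * t * θ0) := by
  obtain ⟨d, -, l, m, hl, hm, e1, e2, e3⟩ := H.in_tor h1 hs
  refine ⟨d * γ0 * d⁻¹, ?_⟩
  rw [map_mul, map_mul, map_inv, e1, H.g0, h_conj, e2, e3]
  apply u_congr <;> field_simp

theorem x0_mem {ρ : H.k →+* H.k} (h1 : ∀ s : H.k, In α s (ρ s)) (h2 : ∀ s : H.k, Zs α s (ρ s))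
    (h3 : ∀ s, ρ (ρ s) = s ^ 2) : ∃ y : H.k, x0 = y + 1 ∧ θ0 = y + 1 + ρ y := by
  obtain ⟨s0, hs0, s00, s01⟩ := H.exists_s
  obtain ⟨s, rfl⟩ : ∃ s : H.k, s0 = s := ⟨⟨s0, hs0⟩, rfl⟩
  have hs : (s : F) ^ 2 ≠ s := fun h => s01 (mul_left_cancel₀ s00 (by rw [← sq, h, mul_one]))
  have r1 : (s : F) + ρ s ≠ 0 := fun h => hs (by
    have e : ρ s = s := Subtype.ext (by grind)
    have := h3 s
    rw [e, e] at this
    exact (congrArg Subtype.val this).symm)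
  have r2 : (s : F) ^ 2 + ρ s ≠ 0 := fun h => hs (by
    have e : ρ s = s ^ 2 := Subtype.ext (by push_cast; grind)
    have := h3 s
    rw [← e] at this
    exact congrArg Subtype.val (e.symm.trans (ρ.injective this)))
  obtain ⟨a, ha⟩ := H.key (h1 s) s00
  obtain ⟨b, hb⟩ := H.key (h1 (s + 1)) (fun h => s01 (by push_cast at h; grind))
  have hz : Zs α ((s + ρ s) * x0 + (s * ρ s + ρ s + 1)) ((s ^ 2 + ρ s) * (θ0 + x0) +
      (s ^ 2 * ρ s + ρ s + 1)) := ⟨a * γ0 * b, by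
    rw [map_mul, map_mul, ha, hb, H.g0, u_mul, u_mul]
    simp only [map_add, map_one]
    push_cast
    apply u_congr <;> grind⟩
  obtain ⟨y, hy⟩ : ∃ y : H.k, (s + ρ s) * x0 + (s * ρ s + ρ s + 1) = y :=
    ⟨⟨_, H.zs_mem hz⟩, rfl⟩
  obtain ⟨x, hx⟩ : ∃ x : H.k, x0 = x := ⟨(y + (s * ρ s + ρ s + 1)) / (s + ρ s), by
    push_cast
    rw [eq_div_iff r1, ← hy]
    grind⟩
  have e1 : (s + ρ s) * x + (s * ρ s + ρ s + 1) = y := Subtype.ext (by
    push_cast; rw [← hx]; exact hy)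
  have e2 := H.zs_uniq hz (hy ▸ h2 y)
  rw [← e1] at e2
  simp only [map_add, map_mul, map_one, h3] at e2
  push_cast at e2
  refine ⟨x + 1, by push_cast; grind, mul_left_cancel₀ r2 ?_⟩
  simp only [map_add, map_one]
  push_cast
  grind

theorem T_form {ρ : H.k →+* H.k} (h1 : ∀ s : H.k, In α s (ρ s)) (h2 : ∀ s : H.k, Zs α s (ρ s))
    (h3 : ∀ s, ρ (ρ s) = s ^ 2) {γ : Γ} (h : α γ ∈ U0) : ∃ s y : H.k,
    α γ = u (s : F) (ρ s) (y + s * ρ s) (s * y + s ^ 2 * ρ s + ρ y) := by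
  obtain ⟨s, t, x, θ, h⟩ := h
  obtain ⟨s', hs⟩ : ∃ s' : H.k, s = s' := ⟨⟨s, t, γ, x, θ, h⟩, rfl⟩
  subst hs
  obtain rfl := H.in_uniq ⟨γ, x, θ, h⟩ (h1 s')
  by_cases hs : s' = 0
  · subst hs
    simp only [map_zero, ZeroMemClass.coe_zero] at h
    obtain ⟨x', rfl⟩ : ∃ x' : H.k, x = x' := ⟨⟨x, H.zs_mem ⟨γ, h⟩⟩, rfl⟩
    exact ⟨0, x', by simp [h, H.zs_uniq ⟨γ, h⟩ (h2 x')]⟩
  obtain ⟨y, e1, e2⟩ := H.x0_mem h1 h2 h3
  obtain ⟨a, ha⟩ := H.key (h1 s') (by simpa using hs)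
  have hz : Zs α (x + s' * ρ s' * y) (θ + s' ^ 2 * ρ s' * (1 + ρ y) + x * s') := ⟨γ * a, by
    rw [map_mul, ha, h, u_mul]
    apply u_congr <;> grind⟩
  obtain ⟨X, hX⟩ : ∃ X : H.k, x + s' * ρ s' * y = X := ⟨⟨_, H.zs_mem hz⟩, rfl⟩
  have e3 := H.zs_uniq hz (hX ▸ h2 X)
  refine ⟨s', X + s' * ρ s' * (y + 1), ?_⟩
  rw [h]
  simp only [map_add, map_mul, map_one, h3]
  push_cast
  apply u_congr <;> grind

theorem w_rel : ∃ γ s t θ, α γ = u s t (s * t) θ ∧ (α w).m 2 1 = c * s ∧ c ^ 2 * θ = 1 := by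
  obtain ⟨a0, a1, a2, a3, a4, a5, a6, a7, a8, a9, a10, a11⟩ := H.pos.w_ent
  have e1 : α (w * (γ0 * γ0) * w) • (e 0 : V F) = ![1, 0, c * (α w).m 2 1, c ^ 2] := by
    rw [map_mul, map_mul, mul_smul, mul_smul, H.pos.we, H.g0_sq, u_smul]
    apply vext <;> simp [sm, e_apply, H.w11, H.pos.c0, sq, mul_comm, *]
  obtain ⟨t, ⟨s, t', x, θ, ht⟩, m, hm, e2⟩ := H.pos.zh.bruhat (g := w * (γ0 * γ0) * w)
    H.pos.ww H.pos.wP (fun h => H.pos.c0 (by
      have := congrFun e1 3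
      rw [smul_e, (show α _ ∈ Pp from h).2.2] at this
      simpa using this.symm))
  rw [e2, map_mul, map_mul, mul_smul, mul_smul, Pp_smul hm, smul_smul', H.pos.we, ht,
    u_smul] at e1
  have f0 := congrFun e1 0
  have f1 := congrFun e1 1
  have f2 := congrFun e1 2
  have f3 := congrFun e1 3
  have := H.pos.c0
  have := Pp_ne hm
  simp [e_apply, *] at f0 f1 f2 f3
  exact ⟨t, s, t', θ, by rw [ht]; apply u_congr <;> grind, by grind, by grind⟩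

theorem gen {K : Subgroup Γ} (h1 : ∀ γ, α γ ∈ U0 → γ ∈ K) (h2 : ∀ d ∈ DD α w, d ∈ K)
    (h3 : w ∈ K) (γ : Γ) : γ ∈ K := by
  have hM : ∀ m, α m ∈ Pp → m ∈ K := fun m hm => by
    obtain ⟨t, ht, d, hd, hd', rfl⟩ := H.pos.zh.decomp H.pos.ww H.pos.wP hm
    exact K.mul_mem (h2 d (H.pos.mem_DD.2 ⟨hd, hd'⟩)) (h1 t ht)
  by_cases h : α γ ∈ Pp
  · exact hM γ h
  obtain ⟨t, ht, m, hm, rfl⟩ := H.pos.zh.bruhat H.pos.ww H.pos.wP h
  exact K.mul_mem (K.mul_mem (h1 t ht) h3) (hM m hm)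

theorem w_eq : (α w).m = !![0, 0, 0, c⁻¹; 0, 0, ((α w).m 2 1)⁻¹, 0; 0, (α w).m 2 1, 0, 0;
    c, 0, 0, 0] := by
  obtain ⟨a0, a1, a2, a3, a4, a5, a6, a7, a8, a9, a10, a11⟩ := H.pos.w_ent
  have := eq_inv_of_mul_eq_one_right H.w_ent.1
  apply ext4 <;> simp [H.w11, H.w_ent.2, *]

theorem k_top : H.k = ⊤ := by
  obtain ⟨ρ, h1, h2, h3⟩ := H.exists_tits
  refine H.good.noSub 1 _ fun γ => ?_
  rw [one_mul, inv_one, mul_one]
  refine H.gen (K := Ent α H.k) (fun γ h i j => ?_) (fun d hd i j => ?_) (fun i j => ?_) γ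
  · obtain ⟨s, y, h⟩ := H.T_form h1 h2 h3 h
    have a1 := (s * y + s ^ 2 * ρ s + ρ y).2
    have a2 := (y + s * ρ s).2
    have a3 := (y + s * ρ s + s * ρ s).2
    push_cast at a1 a2 a3
    rw [h, u_m]
    fin_cases i <;> fin_cases j <;> simp [a1, a2, a3]
  · obtain ⟨l, m, hl, hm, h⟩ := H.d_eq hd
    have h4 := In.tor h H.in_one
    have h5 : m ∈ H.k := mem_of_sq (by
      have := H.in_uniq h4 (h1 ⟨_, _, h4⟩)
      rw [← mul_one (m ^ 2), this]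
      exact Subtype.prop _)
    have h6 : l ∈ H.k := by simpa [hm] using H.k.mul_mem (show _ ∈ H.k from ⟨_, h4⟩) h5
    rw [h, h_m]
    fin_cases i <;> fin_cases j <;> simp [h5, h6]
  · obtain ⟨γ, s, t, θ, e1, e2, e3⟩ := H.w_rel
    obtain ⟨s', y, h⟩ := H.T_form h1 h2 h3 (e1 ▸ u_mem ..)
    obtain ⟨rfl, -, -, h4⟩ := u_inj (e1.symm.trans h)
    have h5 : c ∈ H.k := mem_of_sq (by
      rw [eq_inv_of_mul_eq_one_left e3, h4]
      exact inv_mem (s' * y + s' ^ 2 * ρ s' + ρ y).2)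
    rw [H.w_eq, e2]
    fin_cases i <;> fin_cases j <;> simp [h5, mul_mem]

theorem exists_model : ∃ φ : F →+* F, Nonempty (Model Γ φ) := by
  obtain ⟨ρ, h1, h2, h3⟩ := H.exists_tits
  have hk : ∀ x, x ∈ H.k := fun x => H.k_top ▸ trivial
  let φ : F →+* F := H.k.subtype.comp (ρ.comp ((RingHom.id F).codRestrict H.k hk))
  have hφ : ∀ s : H.k, φ s = ρ s := fun _ => rfl
  have g3 : ∀ x, φ (φ x) = x ^ 2 := fun x => congrArg Subtype.val (h3 ⟨x, hk x⟩)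
  have g1 : ∀ x, In α x (φ x) := fun x => h1 ⟨x, hk x⟩
  have g2 : ∀ x, Zs α x (φ x) := fun x => h2 ⟨x, hk x⟩
  have hT : ∀ γ, α γ ∈ U0 → ∃ s y, (α γ).m = uM φ s y := fun γ h => by
    obtain ⟨s, y, h⟩ := H.T_form h1 h2 h3 h
    refine ⟨s, y, ?_⟩
    rw [h, u_m, uM, hφ, hφ, add_assoc (y : F), CharTwo.add_self_eq_zero, add_zero]
  clear_value φ
  have hD : ∀ d l m hl hm, α d = h l m hl hm → (α d).m = hM φ l := fun d l m hl hm h => by
    have h4 := H.in_uniq (In.tor h H.in_one) (g1 _)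
    have h5 := congrArg φ h4
    simp only [mul_one, g3, map_pow] at h4 h5
    have h6 : φ m = l / m := frobenius_inj F 2 h5
    have h7 : φ l = l * m := by
      rw [show l = l / m * m by field_simp, map_mul, ← h4, h6]; field_simp
    rw [h, h_m, hM, h7]
    apply ext4 <;> simp [hl]
    field_simp
  have hw : (α w).m = nM * hM φ c := by
    obtain ⟨γ, s, t, θ, e1, e2, e3⟩ := H.w_rel
    obtain ⟨s', y, h⟩ := hT γ (e1 ▸ u_mem ..)
    rw [e1] at h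
    have f1 : s = s' := congrFun₂ h 0 1
    have f2 : s * t + s * t = y := congrFun₂ h 1 3
    have f3 : θ = s' * y + s' ^ 2 * φ s' + φ y := congrFun₂ h 0 3
    rw [CharTwo.add_self_eq_zero] at f2
    subst f1 f2
    have f4 := congrArg φ e3
    simp only [f3, map_zero, map_mul, map_pow, g3, mul_zero, zero_add, add_zero, map_one] at e3 f4
    have c0 := H.pos.c0
    have f5 : φ c = c ^ 2 * s := frobenius_inj F 2 (by
      simp only [frobenius_def]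
      have : s ≠ 0 := by rintro rfl; simp at e3
      have : φ s ≠ 0 := by simpa
      grind)
    have : s ≠ 0 := by rintro rfl; simp at e3
    rw [H.w_eq, e2, hM, f5]
    apply ext4 <;> simp [nM, mul4] <;> field_simp
  let S : Subgroup Γ :=
    { carrier := {γ | InS φ (α γ).m}
      mul_mem' := fun a b => by rw [Set.mem_ofPred_eq, map_mul]; exact a.mul b
      one_mem' := by rw [Set.mem_ofPred_eq, map_one]; exact InS.one
      inv_mem' := fun {a} h => ⟨(α a⁻¹).sp, by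
        rw [map_inv, star4_inv, h.2]
        ext i j
        rw [mul_nM_apply, nM_mul_apply, Matrix.map_apply, G.inv_apply]
        rfl⟩ }
  have hU : ∀ s y, ∃ γ, (α γ).m = uM φ s y := fun s y => by
    obtain ⟨γ, x, θ, h⟩ := g1 s
    obtain ⟨s', y', h4⟩ := hT γ (h ▸ u_mem ..)
    obtain rfl : s = s' := congrFun₂ (h ▸ h4) 0 1
    obtain ⟨δ, h5⟩ := g2 (y + y')
    refine ⟨δ * γ, ?_⟩
    rw [map_mul, G.mul_m, h4, show (α δ).m = uM φ 0 (y + y') by rw [h5, u_m, uM]; simp, uM_mul g3]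
    simp [add_assoc, CharTwo.add_self_eq_zero]
  have hH : ∀ l, l ≠ 0 → ∃ γ, (α γ).m = hM φ l := fun l hl => by
    obtain ⟨d, -, l', m, hl', hm, h4, -, h5⟩ := H.zs_tor (g2 (φ l)) (by simpa)
    rw [g3] at h5
    obtain rfl : l = l' := frobenius_inj F 2 h5
    exact ⟨d, hD _ _ _ _ _ h4⟩
  have hB : ∀ A, InS φ A → A 3 0 = 0 → ∃ γ, (α γ).m = A := fun A hA h => by
    obtain ⟨s, y, h4⟩ := hA.bruhat_B g3 h
    obtain ⟨a, ha⟩ := hU s y
    obtain ⟨b, hb⟩ := hH _ (left_ne_zero_of_mul_eq_one (hA.col0_mul h))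
    refine ⟨a⁻¹ * b, ?_⟩
    rw [map_mul, G.mul_m, hb, ← h4, ← ha, ← Matrix.mul_assoc, ← G.mul_m, ← map_mul]
    simp [G.one_m]
  refine ⟨φ, ⟨⟨{ toFun γ := (α γ).m
                 map_one' := by rw [map_one]; rfl
                 map_mul' a b := by rw [map_mul]; rfl },
    fun a b h => H.good.inj (G.ext h), H.gen (K := S) (fun γ h => ?_) (fun d hd => ?_) ?_,
    fun A hA => ?_, g3⟩⟩⟩
  · obtain ⟨s, y, h⟩ := hT γ h
    exact (show InS φ _ from h ▸ inS_uM g3 s y)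
  · obtain ⟨l, m, hl, hm, h⟩ := H.d_eq hd
    exact (show InS φ _ from hD _ _ _ _ _ h ▸ inS_hM g3 l hl)
  · exact (show InS φ _ from hw ▸ inS_nM.mul (inS_hM g3 c H.pos.c0))
  · by_cases h : A 3 0 = 0
    · exact hB A hA h
    obtain ⟨s, y, h4⟩ := hA.bruhat_N g3 h
    obtain ⟨b, hb⟩ := hB _ (inS_nM.mul ((inS_uM g3 s y).mul hA)) h4
    obtain ⟨a, ha⟩ := hU s y
    obtain ⟨d, hd⟩ := hH _ H.pos.c0
    have hn : (α (w * d⁻¹)).m = nM := by
      have : (α d).m * (α d⁻¹).m = 1 := by rw [← G.mul_m, ← map_mul]; simp [G.one_m]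
      rw [map_mul, G.mul_m, hw, ← hd, Matrix.mul_assoc, this, Matrix.mul_one]
    refine ⟨a⁻¹ * (w * d⁻¹ * b), ?_⟩
    change (α _).m = A
    rw [map_mul, map_mul, G.mul_m, G.mul_m, hn, hb, ← Matrix.mul_assoc nM, nM_mul_nM,
      Matrix.one_mul, ← ha, ← Matrix.mul_assoc, ← G.mul_m, ← map_mul]
    simp [G.one_m]

end Pos2

theorem Std.suzuki {z : Γ} (H : Std α z) (hL : NoL α) : ∃ φ : F →+* F, Nonempty (Model Γ φ) := by
  obtain ⟨s, x, θ, w, c, H1⟩ := H.exists_pos hL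
  obtain ⟨β, c, γ, x, θ, H2⟩ := H1.exists_pos2
  exact H2.exists_model

end Cfsg.Agent.H9.S4
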