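import Cfsg.Agent.H9.S4.E4

/-! Simple subgroups of `Sp₄(2^n)` without root elements: the dihedral case. -/

set_option autoImplicit false
set_option linter.unusedSectionVars false
open Matrix Cfsg.Lie Cfsg.Agent.H4.Suz Cfsg.Agent.H8.M3

namespace Cfsg.Agent.H9.S4

variable {F : Type*} [Field F] [CharP F 2] [Finite F] {Γ : Type*} [Group Γ] [Finite Γ]
  {α : Γ →* G F}

/-- both radicals are bigger than the centre -/
structure B1 (α : Γ →* G F) (z : Γ) : Prop where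
  std : Std α z
  he : ∃ e s x θ, s ≠ 0 ∧ α e = u s 0 x θ
  hf : ∃ f t x θ, t ≠ 0 ∧ α f = u 0 t x θ

/-- the vector stabiliser -/
def Lv (α : Γ →* G F) : Subgroup Γ where
  carrier := {γ | α γ ∈ Pp ∧ (α γ).m 0 0 = 1}
  mul_mem' := fun {a b} ha hb => ⟨by rw [map_mul]; exact mul_mem ha.1 hb.1, by
    rw [map_mul, Pp_mul00 hb.1, ha.2, hb.2, one_mul]⟩
  one_mem' := ⟨by rw [map_one]; exact one_mem _, by rw [map_one]; rfl⟩
  inv_mem' := fun {a} ha => ⟨by rw [map_inv]; exact inv_mem ha.1, by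
    have := Pp_mul00 (a := (α a)⁻¹) ha.1
    rw [inv_mul_cancel, ha.2, mul_one] at this
    rw [map_inv, ← this]; rfl⟩

namespace B1
variable {z : Γ} (H : B1 α z)
include H

theorem good : Good α := H.std.good

theorem st : B1 (st.comp α) z := by
  obtain ⟨e, s, x, θ, hs, h1⟩ := H.he
  obtain ⟨f, t, x', θ', ht, h2⟩ := H.hf
  exact ⟨H.std.st, ⟨f, t, _, _, ht, by
    rw [MonoidHom.comp_apply, h2, st_u]; exact u_congr rfl (by simp) rfl rfl⟩,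
    ⟨e, s ^ 2, _, _, pow_ne_zero 2 hs, by rw [MonoidHom.comp_apply, h1, st_u]⟩⟩

theorem cju (s t x θ : F) : B1 (cj (u s t x θ) α) z := by
  obtain ⟨e, s1, x1, θ1, hs, h1⟩ := H.he
  obtain ⟨f, t2, x2, θ2, ht, h2⟩ := H.hf
  exact ⟨H.std.cju .., ⟨e, _, _, _, hs, by rw [cj_apply, h1, u_conj]⟩,
    ⟨f, _, _, _, ht, by rw [cj_apply, h2, u_conj]⟩⟩

theorem cjh (l m : F) (hl : l ≠ 0) (hm : m ≠ 0) : B1 (cj (h l m hl hm) α) z := by
  obtain ⟨e, s1, x1, θ1, hs, h1⟩ := H.he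
  obtain ⟨f, t2, x2, θ2, ht, h2⟩ := H.hf
  exact ⟨H.std.cjh .., ⟨e, l / m * s1, _, _, by simp [*], by rw [cj_apply, h1, h_conj, mul_zero]⟩,
    ⟨f, m ^ 2 * t2, _, _, by simp [*], by rw [cj_apply, h2, h_conj, mul_zero]⟩⟩

theorem exists_g : ∃ e s x θ g, s ≠ 0 ∧ α e = u s 0 x θ ∧ g * e = e * g ∧ g ∉ Ep α := by
  by_contra! h0
  obtain ⟨e, s, x, θ, hs, h1⟩ := H.he
  obtain ⟨f, t, x', θ', ht, h2⟩ := H.hf
  obtain ⟨γ, h3⟩ := H.good.irr.not_Pp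
  have := H.good.gen H.std.z1 (H := Pp.comap α) fun g => by
    rcases Sp.dihedral (M := ⊤) (i := e) (j := g * z * g⁻¹) (H.good.Ep_sq ⟨_, _, _, h1⟩)
      (by rw [conj_mul, H.std.sq]; simp) trivial trivial with ⟨n, -, -, h⟩ | ⟨c, -, c1, -, k1, k2, -⟩
    · exfalso
      have key : ∀ a, α a ∈ U0 → n⁻¹ * g * a * (n⁻¹ * g)⁻¹ ∈ Ep α := fun a ha =>
        h0 e s x θ _ hs h1 (by
          rw [show e = n⁻¹ * g * z * (n⁻¹ * g)⁻¹ by
            calc e = n⁻¹ * (n * e * n⁻¹) * n := by group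
              _ = _ := by rw [h]; group, conj_mul, conj_mul, (H.std.cz a).1 ha])
      have := H.good.Ep_sq (key (e * f) (by rw [map_mul, h1, h2, u_mul]; exact u_mem ..))
      rw [conj_mul, conj_eq_one_iff] at this
      have := congrArg α this
      rw [map_mul, map_mul, h1, h2, u_mul, u_sq, map_one, u_eq_one] at this
      simp [hs, ht] at this
    · obtain ⟨s', x', θ', h4⟩ := h0 e s x θ c hs h1 (mul_inv_eq_iff_eq_mul.1 k1)
      by_cases hs' : s' = 0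
      · subst hs'
        exact U0_le_Pp (cent_z ((H.good.rf h4 c1).2 rfl) (H.good.rf h4 c1).1 (by
          rw [← h4, ← map_mul, ← map_mul, mul_inv_eq_iff_eq_mul.1 k2]))
      · obtain ⟨_, _, _, h5⟩ := h0 c s' x' θ' _ hs' h4 (mul_inv_eq_iff_eq_mul.1 k2).symm
        exact (show α _ ∈ Pp from h5 ▸ u_Pp ..)
  exact h3 (show γ ∈ Pp.comap α from this ▸ trivial)

theorem out : (∃ k ∈ Lv α, (α k).m 2 1 ≠ 0) ∧ ∀ γ γ' s t x θ s' t' x' θ', α γ = u s t x θ →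
    α γ' = u s' t' x' θ' → t ≠ 0 → t' ≠ 0 → t = t' := by
  obtain ⟨e, s, x, θ, g, hs, h1, h2, h3⟩ := H.exists_g
  have e1 : e ≠ 1 := by rintro rfl; rw [map_one, eq_comm, u_eq_one] at h1; exact hs h1.1
  have h4 : g * e * g⁻¹ = e := by rw [h2]; simp
  have hg := H.good.Pp_of_conj ⟨_, _, _, h1⟩ e1 (g := g) (by rw [h4]; exact ⟨_, _, _, h1⟩)
  have h5 := congrArg α h4
  rw [map_mul, map_mul, map_inv, h1, conj_Qp hg] at h5
  obtain ⟨k1, -, k2, k3⟩ := u_inj h5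
  have g0 : (α g).m 0 0 = 1 := by have := (H.good.rf h1 e1).1; grind
  have k4 := (row3 hg.1 hg.2.1 hg.2.2).2.2.2
  have g21 : (α g).m 2 1 ≠ 0 := fun h => h3 ⟨_, _, _, (mem_U0_of hg g0 (by grind) h).trans
    (u_congr rfl (by grind) rfl rfl)⟩
  let μ : Lv α →* G F := mid.comp ((α.comp (Lv α).subtype).codRestrict Pp fun γ => γ.2.1)
  have hμ : ∀ γ : Lv α, (μ γ).m = !![1, 0, 0, 0; 0, (α γ).m 1 1, (α γ).m 1 2, 0;
    0, (α γ).m 2 1, (α γ).m 2 2, 0; 0, 0, 0, 1] := fun _ => rfl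
  have hU : ∀ {γ s t x θ}, α γ = u s t x θ → γ ∈ Lv α := fun h => ⟨h ▸ u_Pp .., h ▸ rfl⟩
  have key : ∀ {γ s t x θ} (h : α γ = u s t x θ), t ≠ 0 →
      ∃ k, μ k * μ ⟨γ, hU h⟩ * (μ k)⁻¹ = μ ⟨g, hg, g0⟩ := by
    intro γ s' t x' θ' h ht
    rcases Sp.dihedral (M := μ.range) (i := μ ⟨γ, hU h⟩) (j := μ ⟨g, hg, g0⟩)
      (G.ext (by
        apply ext4 <;> simp [G.mul_m, mul4, hμ, G.one_m, h, u_m, CharTwo.add_self_eq_zero]))
      (G.ext (by apply ext4 <;> simp [G.mul_m, mul4, hμ, G.one_m] <;> grind)) ⟨_, rfl⟩ ⟨_, rfl⟩ with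
      ⟨_, ⟨k, rfl⟩, -, h⟩ | ⟨_, ⟨c, rfl⟩, c1, -, l1, l2, -⟩
    · exact ⟨k, h⟩
    · refine absurd (G.ext ?_) c1
      rw [mul_inv_eq_iff_eq_mul] at l1 l2
      have a1 := congrFun₂ (congrArg G.m l1) 2 2
      have a2 := congrFun₂ (congrArg G.m l1) 1 2
      have a3 := congrFun₂ (congrArg G.m l2) 1 1
      have a4 := (row3 c.2.1.1 c.2.1.2.1 c.2.1.2.2).2.2.2
      simp [G.mul_m, mul4, hμ, h, u_m, ht] at a1 a2 a3
      apply ext4 <;> simp [hμ, G.one_m] <;> grind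
  constructor
  · obtain ⟨f, t, x', θ', ht, h⟩ := H.hf
    obtain ⟨k, hk⟩ := key h ht
    refine ⟨k, k.2, fun h0 => g21 ?_⟩
    rw [mul_inv_eq_iff_eq_mul] at hk
    have a1 := congrFun₂ (congrArg G.m hk) 2 1
    have a4 := (row3 k.2.1.1 k.2.1.2.1 k.2.1.2.2).2.2.2
    simp [G.mul_m, mul4, hμ, h, u_m, h0] at a1 a4
    grind
  · intro γ γ' s1 t1 x1 θ1 s2 t2 x2 θ2 h h' t10 t20
    obtain ⟨k, hk⟩ := key h t10
    obtain ⟨k', hk'⟩ := key h' t20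
    have h6 : μ (k'⁻¹ * k) * μ ⟨γ, hU h⟩ = μ ⟨γ', hU h'⟩ * μ (k'⁻¹ * k) := by
      rw [map_mul, map_inv]
      calc _ = (μ k')⁻¹ * (μ k * μ ⟨γ, hU h⟩ * (μ k)⁻¹) * μ k := by group
        _ = _ := by rw [hk, ← hk']; group
    generalize k'⁻¹ * k = n at h6
    have a1 := congrFun₂ (congrArg G.m h6) 1 1
    have a2 := congrFun₂ (congrArg G.m h6) 1 2
    have a4 := (row3 n.2.1.1 n.2.1.2.1 n.2.1.2.2).2.2.2
    simp [G.mul_m, mul4, hμ, h, h', u_m, t20] at a1 a2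
    obtain ⟨x0, θ0, hx, -, hz⟩ := H.std.hz'
    have := H.good.rf2 (γ := n * z * n⁻¹ * z) (x := (α n).m 1 1 * x0 + x0) (by
      rw [map_mul, map_mul, map_mul, InvMemClass.coe_inv, map_inv, hz, conj_Qp n.2.1, u_mul, a1,
        n.2.2]
      apply u_congr <;> grind)
    grind

theorem s_eq {γ γ' : Γ} {s t x θ s' t' x' θ' : F} (h : α γ = u s t x θ)
    (h' : α γ' = u s' t' x' θ') (hs : s ≠ 0) (hs' : s' ≠ 0) : s = s' :=
  frobenius_inj F 2 (H.st.out.2 γ γ' _ (s ^ 2) _ _ _ (s' ^ 2) _ _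
    (by rw [MonoidHom.comp_apply, h, st_u])
    (by rw [MonoidHom.comp_apply, h', st_u]) (pow_ne_zero 2 hs) (pow_ne_zero 2 hs'))

theorem z_eq {γ : Γ} {x θ : F} (h : α γ = u 0 0 x θ) : γ = 1 ∨ γ = z := by
  by_cases h1 : γ = 1
  · exact Or.inl h1
  right
  obtain ⟨x0, θ0, hx, -, hz⟩ := H.std.hz'
  obtain ⟨k, hk, h2⟩ := H.out.1
  have h3 := (H.good.rf h h1).2 rfl
  have h4 := H.s_eq (γ := k * γ * k⁻¹) (γ' := k * z * k⁻¹)
    (by rw [map_mul, map_mul, map_inv, h, conj_Qp hk.1])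
    (by rw [map_mul, map_mul, map_inv, hz, conj_Qp hk.1]) (by simp [hk.2, h2, h3])
    (by simp [hk.2, h2, hx])
  obtain rfl : x = x0 := by simpa [hk.2, h2] using h4
  have h5 := H.good.rf1 (γ := γ * z) (θ := θ + θ0) (by
    rw [map_mul, h, hz, u_mul]; apply u_congr <;> grind)
  exact H.good.inj (by rw [h, hz]; exact u_congr rfl rfl rfl (by grind))

theorem ex_e {x0 θ0 : F} (hz : α z = u 0 0 x0 θ0) :
    ∃ k ∈ Lv α, ∃ s x, s ≠ 0 ∧ α (k * z * k⁻¹) = u s 0 x θ0 := by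
  obtain ⟨k, hk, h2⟩ := H.out.1
  refine ⟨k, hk, _, _, ?_, by
    rw [map_mul, map_mul, map_inv, hz, conj_Qp hk.1, hk.2, one_pow, one_mul θ0]⟩
  simp [h2, (H.good.rf hz H.std.z1).2 rfl]

theorem ex_f {x0 θ0 : F} (hz : α z = u 0 0 x0 θ0) :
    ∃ k t x θ, t ≠ 0 ∧ α (k * z * k⁻¹) = u 0 t x θ ∧ t * θ + x ^ 2 = x0 ^ 2 := by
  obtain ⟨k, -, s, x, hs, h⟩ := H.st.ex_e (x0 := θ0) (θ0 := x0 ^ 2) (by
    rw [MonoidHom.comp_apply, hz, st_u]; simp)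
  obtain ⟨s', t, x', θ, h1⟩ := st_mem_U0.1 (show S4.st (α (k * z * k⁻¹)) ∈ U0 from h ▸ u_mem ..)
  rw [MonoidHom.comp_apply, h1, st_u] at h
  obtain ⟨rfl, h2, -, h3⟩ := u_inj h
  obtain rfl : s' = 0 := by simpa using h2
  exact ⟨k, _, _, _, hs, h1, by simpa using h3⟩

end B1

/-- normalised dihedral position -/
structure B2 (α : Γ →* G F) (z e f : Γ) : Prop where
  b1 : B1 α z
  hz : α z = u 0 0 1 1
  he : α e = u 1 0 0 1
  hf : α f = u 0 1 0 1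

theorem B1.exists_b2 {z : Γ} (H : B1 α z) : ∃ (β : Γ →* G F), ∃ e f, B2 β z e f := by
  obtain ⟨e, s, x, θ, hs, h1⟩ := H.he
  obtain ⟨f, t, x', θ', ht, h2⟩ := H.hf
  obtain ⟨m, hm⟩ := exists_sq t⁻¹
  have m0 : m ≠ 0 := by rintro rfl; simp [eq_comm, ht] at hm
  have H1 := H.cjh (m / s) m (div_ne_zero m0 hs) m0
  have e1 : ∃ x θ, cj (h (m / s) m (div_ne_zero m0 hs) m0) α e = u 1 0 x θ := ⟨_, _, by
    rw [cj_apply, h1, h_conj]; exact u_congr (by field_simp) (by simp) rfl rfl⟩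
  have e2 : ∃ x θ, cj (h (m / s) m (div_ne_zero m0 hs) m0) α f = u 0 1 x θ := ⟨_, _, by
    rw [cj_apply, h2, h_conj]; exact u_congr (by simp) (by rw [hm]; field_simp) rfl rfl⟩
  generalize cj (h (m / s) m (div_ne_zero m0 hs) m0) α = β at H1 e1 e2
  obtain ⟨x1, θ1, e1⟩ := e1
  obtain ⟨x2, θ2, e2⟩ := e2
  have h3 : β (e * f * (e * f)) = u 0 0 1 1 := by
    rw [map_mul, map_mul, e1, e2, u_mul, u_sq]; simp
  have hz : β z = u 0 0 1 1 := by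
    rcases H1.z_eq h3 with h | h
    · rw [h, map_one, eq_comm, u_eq_one] at h3; simp at h3
    · rwa [h] at h3
  obtain ⟨k, -, s3, x3, hs3, h4⟩ := H1.ex_e hz
  obtain rfl := H1.s_eq h4 e1 hs3 one_ne_zero
  obtain ⟨k', t4, x4, θ4, ht4, h5, h6⟩ := H1.ex_f hz
  obtain rfl := H1.out.2 _ _ _ _ _ _ _ _ _ _ h5 e2 ht4 one_ne_zero
  refine ⟨_, k * z * k⁻¹, k' * z * k'⁻¹, (H1.cju 0 x3 0 0).cju x4 0 0 0, ?_, ?_, ?_⟩ <;>
    simp only [cj_apply, hz, h4, h5, u_conj] <;> apply u_congr <;> grind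

end Cfsg.Agent.H9.S4
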