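import Cfsg.Agent.H9.S4.E5

/-! Simple subgroups of `Sp₄(2^n)`: the dihedral case is rational; the main theorem. -/

set_option autoImplicit false
set_option linter.unusedSectionVars false
open Matrix Cfsg.Lie Cfsg.Agent.H4.Suz Cfsg.Agent.H8.M3

namespace Cfsg.Agent.H9.S4

variable {F : Type*} [Field F] [CharP F 2] [Finite F] {Γ : Type*} [Group Γ] [Finite Γ]
  {α : Γ →* G F}

/-- a rational involution -/
def mF : G F := ofB !![1, 0, 0, 1; 0, 1, 0, 0; 0, 1, 1, 0; 0, 0, 0, 1] (by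
  intro i j
  fin_cases i <;> fin_cases j <;> simp [nM, CharTwo.add_self_eq_zero])

/-- a rational involution -/
def mE : G F := ofB !![0, 1, 1, 1; 1, 0, 1, 1; 0, 0, 0, 1; 0, 0, 1, 0] (by
  intro i j
  fin_cases i <;> fin_cases j <;> simp [nM, CharTwo.add_self_eq_zero])

/-- the prime field -/
def k2 (F : Type*) [Field F] [CharP F 2] : Subfield F where
  carrier := {x | x = 0 ∨ x = 1}
  mul_mem' := by rintro _ _ (rfl | rfl) (rfl | rfl) <;> simp
  one_mem' := Or.inr rfl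
  add_mem' := by rintro _ _ (rfl | rfl) (rfl | rfl) <;> simp [CharTwo.add_self_eq_zero]
  zero_mem' := Or.inl rfl
  neg_mem' := by rintro _ (rfl | rfl) <;> simp [CharTwo.neg_eq]
  inv_mem' := by rintro _ (rfl | rfl) <;> simp

namespace B2
variable {z a b : Γ} (H : B2 α z a b)
include H

theorem good : Good α := H.b1.good

theorem cjz (x θ : F) : B2 (cj (u 0 0 x θ) α) z a b :=
  ⟨H.b1.cju .., by simp [cj_apply, H.hz, u_conj], by simp [cj_apply, H.he, u_conj],
    by simp [cj_apply, H.hf, u_conj]⟩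

theorem aa : a * a = 1 := H.good.Ep_sq ⟨_, _, _, H.he⟩
theorem bb : b * b = 1 := H.good.eq_one (by rw [map_mul, H.hf, u_sq]; simp)

theorem e_cases {i : Γ} {s x θ : F} (h : α i = u s 0 x θ) (hs : s ≠ 0) : i = a ∨ i = a * z := by
  obtain rfl := H.b1.s_eq h H.he hs one_ne_zero
  rcases H.b1.z_eq (γ := a * i) (by
    rw [map_mul, h, H.he, u_mul]; exact u_congr (by grind) (by simp) rfl rfl) with h1 | h1
  · exact Or.inl (by rw [← inv_self H.aa, eq_inv_of_mul_eq_one_right h1])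
  · exact Or.inr (by rw [← h1, ← mul_assoc, H.aa, one_mul])

theorem f_cases {i : Γ} {t x θ : F} (h : α i = u 0 t x θ) (ht : t ≠ 0) : i = b ∨ i = b * z := by
  obtain rfl := H.b1.out.2 _ _ _ _ _ _ _ _ _ _ h H.hf ht one_ne_zero
  rcases H.b1.z_eq (γ := b * i) (by
    rw [map_mul, h, H.hf, u_mul]; exact u_congr (by simp) (by grind) rfl rfl) with h1 | h1
  · exact Or.inl (by rw [← inv_self H.bb, eq_inv_of_mul_eq_one_right h1])
  · exact Or.inr (by rw [← h1, ← mul_assoc, H.bb, one_mul])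

theorem fe : b * (a * z) * b⁻¹ = a := H.good.inj (by
  simp only [map_mul, map_inv, H.hf, H.he, H.hz]
  rw [u_mul 1, u_conj]; apply u_congr <;> grind)

theorem ef : a * (b * z) * a⁻¹ = b := H.good.inj (by
  simp only [map_mul, map_inv, H.hf, H.he, H.hz]
  rw [u_mul 0, u_conj]; apply u_congr <;> grind)

theorem step1 : ∃ σ f', cj (u 0 0 σ 0) α f' = mF := by
  obtain ⟨k, hk, h1⟩ : ∃ k ∈ Lv α, k * z * k⁻¹ = a := by
    obtain ⟨k, hk, s, x, hs, h⟩ := H.b1.ex_e H.hz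
    rcases H.e_cases h hs with h1 | h1
    · exact ⟨k, hk, h1⟩
    · exact ⟨b * k, mul_mem ⟨H.hf ▸ u_Pp .., H.hf ▸ rfl⟩ hk, by rw [← H.fe, ← h1]; group⟩
  have h2 := congrArg α h1
  rw [map_mul, map_mul, map_inv, H.hz, conj_Qp hk.1, H.he, hk.2] at h2
  obtain ⟨a1, -, a2, -⟩ := u_inj h2
  obtain ⟨-, a3, -⟩ := row3 hk.1.1 hk.1.2.1 hk.1.2.2
  have h3 : α b = tv (e 0) * tv (e 1) := by
    rw [H.hf]
    apply G.ext
    apply ext4 <;> simp [G.mul_m, mul4, tv_m, u_m, e_apply, Fin.rev]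
  refine ⟨(α k).m 0 1, k * b * k⁻¹, ?_⟩
  have k0 : α k • (e 0 : V F) = ![1, 0, 0, 0] := by
    rw [Pp_smul hk.1, hk.2]; apply vext <;> simp [e_apply]
  have k1 : α k • (e 1 : V F) = ![(α k).m 0 1, 0, 1, 0] := by
    apply vext <;> simp [smul_e, a3] <;> grind
  have cm : ∀ g a b : G F, g * (a * b) * g⁻¹ = g * a * g⁻¹ * (g * b * g⁻¹) := fun _ _ _ => by group
  rw [cj_apply, map_mul, map_mul, map_inv, h3, cm (α k), tv_conj, tv_conj, cm, tv_conj,
    tv_conj, k0, k1, u_smul, u_smul]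
  apply G.ext
  apply ext4 <;> simp [G.mul_m, mul4, tv_m, mF, ofB, Fin.rev, CharTwo.add_self_eq_zero]

theorem step2 : ∃ σ e', cj (u 0 0 0 σ) α e' = mE := by
  obtain ⟨k, h1⟩ : ∃ k, k * z * k⁻¹ = b := by
    obtain ⟨k, s, x, θ, hs, h, -⟩ := H.b1.ex_f H.hz
    rcases H.f_cases h hs with h1 | h1
    · exact ⟨k, h1⟩
    · exact ⟨a * k, by rw [← H.ef, ← h1]; group⟩
  have h2 := congrArg α h1
  rw [map_mul, map_mul, map_inv, H.hz, H.hf] at h2
  have k0 : α k • (e 0 : V F) = ![1, 1, 0, 0] := by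
    have d1 := (Dv_p (0 : F) 1 1).conj (α k)
    have d2 := Dv_l (0 : F) 1 1
    rw [one_pow, one_smul, h2] at d1
    rw [one_pow] at d2
    exact d1.uniq d2
  obtain ⟨y, hy⟩ : ∃ y, y = α k • (e 2 : V F) := ⟨_, rfl⟩
  have h3 : α k • u (0 : F) 0 1 1 • (e 2 : V F) = u (0 : F) 1 0 1 • y := by
    rw [← h2, hy]; simp [mul_smul]
  rw [show u (0 : F) 0 1 1 • (e 2 : V F) = e 2 + e 0 by
    rw [u_smul]; apply vext <;> simp [e_apply], smul_add, k0, ← hy, u_smul] at h3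
  have y3 : y 3 = 1 := by simpa [eq_comm] using congrFun h3 0
  have y2 : y 2 = 1 := by simpa [eq_comm] using congrFun h3 1
  refine ⟨y 0 + y 1, k * a * k⁻¹, G.ext_v fun w => ?_⟩
  have h4 : ∀ w : V F, u (1 : F) 0 0 1 • w = w + B w (e 0) • (e 0 : V F) + B w (e 0) • (e 2 : V F)
      + B w (e 2) • (e 0 : V F) := fun w => by
    rw [u_smul]; apply vext <;> simp [e_apply, B_apply, add_right_comm]
  rw [cj_apply, map_mul, map_mul, map_inv, H.he, mul_smul, mul_smul, mul_smul, mul_smul, h4,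
    ← B_right, ← B_right]
  simp only [smul_add, smul_smul', smul_inv_smul, k0, ← hy, ← B_right, u_smul]
  apply vext <;> simp [sm, mE, ofB, B_apply, y2, y3, Matrix.vecHead, Matrix.vecTail] <;> grind

theorem final {f' e' : Γ} (hf : α f' = mF) (he : α e' = mE) : False := by
  have r0 : (0 : F) ∈ k2 F := Or.inl rfl
  have r1 : (1 : F) ∈ k2 F := Or.inr rfl
  have aS : a ∈ Ent α (k2 F) := fun i j => by
    rw [H.he, u_m]; fin_cases i <;> fin_cases j <;> simp
  have bS : b ∈ Ent α (k2 F) := fun i j => by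
    rw [H.hf, u_m]; fin_cases i <;> fin_cases j <;> simp
  have zS : z ∈ Ent α (k2 F) := fun i j => by
    rw [H.hz, u_m]; fin_cases i <;> fin_cases j <;> simp
  have fS : f' ∈ Ent α (k2 F) := fun i j => by
    rw [hf]; fin_cases i <;> fin_cases j <;> simp [mF, ofB]
  have eS : e' ∈ Ent α (k2 F) := fun i j => by
    rw [he]; fin_cases i <;> fin_cases j <;> simp [mE, ofB]
  have hne : Ent α (k2 F) ≠ ⊤ := fun h => by
    have := H.good.noSub 1 (k2 F) fun γ => by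
      have : γ ∈ Ent α (k2 F) := h ▸ trivial
      rw [one_mul, inv_one, mul_one]
      exact this
    obtain ⟨c, c0, c1⟩ := H.good.big
    exact (show c ∈ k2 F from this ▸ trivial).elim c0 c1
  generalize Ent α (k2 F) = S at *
  have hE : ∀ γ s x θ, α γ = u s 0 x θ → γ ∈ S := fun γ s x θ h => by
    by_cases hs : s = 0
    · subst hs
      rcases H.b1.z_eq h with rfl | rfl
      exacts [one_mem _, zS]
    · rcases H.e_cases h hs with rfl | rfl
      exacts [aS, mul_mem aS zS]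
  have hT : U0.comap α ≤ S := by
    rintro γ ⟨s, t, x, θ, h⟩
    by_cases ht : t = 0
    · exact hE _ _ _ _ (ht ▸ h)
    obtain rfl := H.b1.out.2 _ _ _ _ _ _ _ _ _ _ h H.hf ht one_ne_zero
    have := mul_mem (hE (γ * b) _ _ _ (by
      rw [map_mul, h, H.hf, u_mul]; exact u_congr rfl (by grind) rfl rfl)) bS
    rwa [mul_assoc, H.bb, mul_one] at this
  have c1 : f' * z * f'⁻¹ = a * z := H.good.inj (by
    simp only [map_mul, map_inv, hf, H.he, H.hz]
    rw [mul_inv_eq_iff_eq_mul]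
    apply G.ext
    apply ext4 <;> simp [G.mul_m, mul4, u_m, mF, ofB, CharTwo.add_self_eq_zero])
  have c2 : e' * z * e'⁻¹ = b * z := H.good.inj (by
    simp only [map_mul, map_inv, he, H.hf, H.hz]
    rw [mul_inv_eq_iff_eq_mul]
    apply G.ext
    apply ext4 <;> simp [G.mul_m, mul4, u_m, mE, ofB, CharTwo.add_self_eq_zero])
  have fus : ∀ i ∈ S, i * i = 1 → i ≠ 1 → ∃ m ∈ S, m * z * m⁻¹ = i := by
    intro i hi h2 h1
    obtain ⟨n, hn, s, t, x, θ, h⟩ := conj_into hT H.b1.std.odd hi h2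
    suffices ∃ m ∈ S, m * z * m⁻¹ = n⁻¹ * i * n by
      obtain ⟨m, hm, h3⟩ := this
      refine ⟨n * m, mul_mem hn hm, ?_⟩
      calc _ = n * (m * z * m⁻¹) * n⁻¹ := by group
        _ = _ := by rw [h3]; group
    have h3 : u s t x θ * u s t x θ = 1 := by
      rw [← h, ← map_mul, show n⁻¹ * i * n * (n⁻¹ * i * n) = n⁻¹ * (i * i) * n by group, h2]; simp
    rw [u_sq, u_eq_one] at h3
    by_cases hs : s = 0
    · subst hs
      by_cases ht : t = 0
      · subst ht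
        rcases H.b1.z_eq h with h4 | h4
        · exact absurd (by simpa [mul_assoc, inv_mul_eq_one] using h4) h1
        · exact ⟨1, one_mem _, by simp [h4]⟩
      · rcases H.f_cases h ht with h4 | h4
        · exact ⟨a * e', mul_mem aS eS, by rw [h4, ← H.ef, ← c2]; group⟩
        · exact ⟨e', eS, by rw [h4, c2]⟩
    · obtain rfl := (mul_eq_zero.1 h3.2.2.1).resolve_left hs
      rcases H.e_cases h hs with h4 | h4
      · exact ⟨b * f', mul_mem bS fS, by rw [h4, ← H.fe, ← c1]; group⟩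
      · exact ⟨f', fS, by rw [h4, c1]⟩
  have se : SE S := fun g i hi h2 h1 h => by
    obtain ⟨m, hm, h3⟩ := fus i hi h2 h1
    obtain ⟨n, hn, h4⟩ := fus _ h (by rw [conj_mul, h2]; simp) (by simpa using h1)
    have := hT ((H.b1.std.cz (n⁻¹ * g * m)).2 (by
      calc n⁻¹ * g * m * z = n⁻¹ * (g * (m * z * m⁻¹) * g⁻¹) * g * m := by group
        _ = _ := by rw [h3, ← h4]; group))
    simpa [mul_assoc] using mul_mem (mul_mem hn this) (inv_mem hm)
  obtain ⟨w, hw, hwS⟩ : ∃ w, w * w = 1 ∧ w ∉ S := by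
    by_contra! h
    exact hne (H.good.gen H.b1.std.z1 fun g => h _ (by rw [conj_mul, H.b1.std.sq]; simp))
  have a1 : a ≠ 1 := fun h => by simpa [h, u_eq_one] using H.he.symm
  have b1 : b ≠ 1 := fun h => by simpa [h, u_eq_one] using H.hf.symm
  obtain ⟨d1, m1, n1, e1⟩ := se.trans hw hwS zS H.b1.std.sq H.b1.std.z1 aS H.aa a1
  obtain ⟨d2, m2, n2, e2⟩ := se.trans hw hwS zS H.b1.std.sq H.b1.std.z1 bS H.bb b1
  have hc := se.comm zS H.b1.std.sq H.b1.std.z1 H.good.cit hw hwS m1 (n1 ▸ inv_mem m1) m2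
    (n2 ▸ inv_mem m2)
  have dz := Dv_p (0 : F) 1 1
  have da := Dv_p (1 : F) 0 1
  have db := Dv_l (0 : F) 1 1
  rw [one_pow, one_smul, ← H.hz] at dz
  rw [one_pow, one_smul, ← H.he, ← e1, map_mul, map_mul, map_inv] at da
  rw [one_pow, ← H.hf, ← e2, map_mul, map_mul, map_inv] at db
  have f1 := (dz.conj _).uniq da
  have f2 := (dz.conj _).uniq db
  have f3 : α (d1 * d2) • (e 0 : V F) = α (d2 * d1) • e 0 := by rw [hc]
  rw [map_mul, map_mul, mul_smul, mul_smul, f1, f2] at f3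
  have g1 := congrFun f1 2
  have g2 := congrFun f3 2
  have hP := mem_Pp_of (c := 1) (f1.trans (one_smul _ _).symm)
  have g3 := congrArg α e1
  rw [map_mul, map_mul, map_inv, H.hz, H.he, conj_Qp hP] at g3
  have g4 := (u_inj g3).1
  simp [sm, e_apply] at g1 g2
  simp [g1] at g2
  simp [g2] at g4

theorem false : False := by
  obtain ⟨σ, f', h1⟩ := H.step1
  obtain ⟨σ', e', h2⟩ := (H.cjz σ 0).step2
  refine ((H.cjz σ 0).cjz 0 σ').final (f' := f') ?_ h2
  rw [cj_apply, h1, mul_inv_eq_iff_eq_mul]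
  apply G.ext
  apply ext4 <;> simp [G.mul_m, mul4, u_m, mF, ofB, add_comm]

end B2

theorem Good.model (hα : Good α) : ∃ φ : F →+* F, Nonempty (Model Γ φ) := by
  obtain ⟨g, z, H⟩ := hα.exists_std
  generalize S4.cj g α = β at H
  by_cases hL : NoL β
  · exact H.suzuki hL
  by_cases hP : NoP β
  · refine H.st.suzuki fun γ t x θ h => ?_
    obtain ⟨s, t', x', θ', h1⟩ := st_mem_U0.1 (show S4.st (β γ) ∈ U0 from h ▸ u_mem ..)
    rw [MonoidHom.comp_apply, h1, st_u] at h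
    obtain ⟨rfl, rfl, -⟩ := u_inj h
    simp [hP _ _ _ _ h1]
  simp only [NoL, NoP, not_forall] at hL hP
  obtain ⟨f, t, x, θ, h1, h2⟩ := hL
  obtain ⟨e, s, x', θ', h3, h4⟩ := hP
  obtain ⟨β', a, b, H2⟩ := B1.exists_b2 ⟨H, ⟨e, s, x', θ', h4, h3⟩, ⟨f, t, x, θ, h2, h1⟩⟩
  exact H2.false.elim

theorem comm_of_Qs (hΓ : SN Γ) {Q : V F → F} (hQ : IsQ Q) (h : ∀ γ v, Q (st (α γ) • v) = Q v) :
    ∃ J : Matrix (Fin 4) (Fin 4) F, J 0 0 = 1 ∧ J 1 1 = 0 ∧ ∀ γ, J * (α γ).m = (α γ).m * J := by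
  obtain ⟨c0, h0⟩ := exists_sq (Q (e 0))
  obtain ⟨c1, h1⟩ := exists_sq (Q (e 1))
  obtain ⟨c2, h2⟩ := exists_sq (Q (e 2))
  obtain ⟨c3, h3⟩ := exists_sq (Q (e 3))
  let Ω : Matrix (Fin 4) (Fin 4) F := !![0, c0, c1, 1; c0, 0, 0, c2; c1, 0, 0, c3; 1, c2, c3, 0]
  have key : ∀ γ, (α γ).mᵀ * Ω * (α γ).m = Ω + ((α γ).mᵀ * Ω * (α γ).m) 1 2 • nM := by
    intro γ
    have q : ∀ j, Q (st (α γ) • e j) = Q (e j) := fun j => h γ _
    have q0 := q 0
    have q1 := q 1
    have q2 := q 2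
    have q3 := q 3
    rw [hQ.eq, ← h0, ← h1, ← h2, ← h3] at q0 q1 q2 q3
    simp only [smul_e, st_apply] at q0 q1 q2 q3
    simp only [show pairOf 0 = (0, 1) from rfl, show pairOf 1 = (0, 2) from rfl,
      show pairOf 2 = (1, 3) from rfl, show pairOf 3 = (2, 3) from rfl] at q0 q1 q2 q3
    generalize α γ = A at *
    have o0 : _ = (0 : F) := A.orth 0 1
    have o1 : _ = (0 : F) := A.orth 0 2
    have o2 : _ = (0 : F) := A.orth 1 3
    have o3 : _ = (0 : F) := A.orth 2 3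
    have p0 : _ = (0 : F) := A.orth' 0 1
    have p1 : _ = (0 : F) := A.orth' 0 2
    have p2 : _ = (0 : F) := A.orth' 1 3
    have p3 : _ = (0 : F) := A.orth' 2 3
    have p4 : _ = (1 : F) := A.orth' 0 3
    have e0 : (A.mᵀ * Ω * A.m) 0 1 = c0 := frobenius_inj F 2 (by
      simp [frobenius_def, mul4, Ω]; grind)
    have e1 : (A.mᵀ * Ω * A.m) 0 2 = c1 := frobenius_inj F 2 (by
      simp [frobenius_def, mul4, Ω]; grind)
    have e2 : (A.mᵀ * Ω * A.m) 1 3 = c2 := frobenius_inj F 2 (by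
      simp [frobenius_def, mul4, Ω]; grind)
    have e3 : (A.mᵀ * Ω * A.m) 2 3 = c3 := frobenius_inj F 2 (by
      simp [frobenius_def, mul4, Ω]; grind)
    simp [mul4, Ω] at e0 e1 e2 e3
    apply ext4 <;> simp [mul4, Ω, nM] <;> grind
  let ε : Γ →* Multiplicative F :=
    { toFun γ := Multiplicative.ofAdd (((α γ).mᵀ * Ω * (α γ).m) 1 2)
      map_one' := by simp [G.one_m, Ω]
      map_mul' a b := by
        rw [← ofAdd_add, map_mul, G.mul_m, transpose_mul]
        congr 1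
        rw [show (α b).mᵀ * (α a).mᵀ * Ω * ((α a).m * (α b).m) =
          (α b).mᵀ * ((α a).mᵀ * Ω * (α a).m) * (α b).m by simp only [Matrix.mul_assoc]]
        nth_rewrite 1 [key a]
        rw [Matrix.mul_add, Matrix.add_mul, Matrix.mul_smul, Matrix.smul_mul, (α b).sp]
        simp [nM, add_comm] }
  refine ⟨nM * Ω, by simp [mul4, nM, Ω], by simp [mul4, nM, Ω], fun γ => ?_⟩
  have h4 : ((α γ).mᵀ * Ω * (α γ).m) 1 2 = 0 := hΓ.hom_eq_one ε γ
  have h5 := key γ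
  rw [h4, zero_smul, add_zero] at h5
  nth_rewrite 2 [← h5]
  simp only [← Matrix.mul_assoc, (α γ).sp']

end Cfsg.Agent.H9.S4
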